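import Mathlib
import Cfsg.Agent.LieClassical.OrthFinite
set_option linter.all false

-- part: H844/Unip
section
/-!
# Isometries of order three of quadratic spaces over `F₃` (helper844), I: logarithm and frames

`V` a quadratic space over `F₃`. An isometry `x` with `x³ = 1` is `1 + L - L²` with `L = x² - x` skew, `L³ = 0`.

* `Sk Q L` : `L` is skew and `L³ = 0`; `lg`, `ex` : logarithm and exponential; `lg_ex`, `ex_lg`;
* `Shp` : a shape (block lengths and pairing of the generators), `Fr Q L S τ p` : the generators `p` form a frame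
  of shape `S` with pairing values `τ`;
* `exists_conj` : frames of the same shape and values (and of full dimension) are conjugate under `O Q`;
* `disc` : the product of the values `τ i ^ ℓ i` only depends on the shape (and `V`).
-/

set_option autoImplicit false

namespace Cfsg.Agent.H844.Unip

open QuadraticMap Cfsg.Agent.LieClassical.OrthCore

variable {V : Type*} [AddCommGroup V] [Module (ZMod 3) V]

theorem add3 (v : V) : v + v + v = 0 := by
  have h : (3 : ZMod 3) • v = 0 := by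
    rw [show (3 : ZMod 3) = 0 from rfl, zero_smul]
  rw [← h, show (3 : ZMod 3) = 1 + 1 + 1 from rfl, add_smul, add_smul, one_smul]

/-- `L` is skew and `L ^ 3 = 0` -/
structure Sk (Q : QuadraticForm (ZMod 3) V) (L : V →ₗ[ZMod 3] V) : Prop where
  skew : ∀ v w, polar Q (L v) w = - polar Q v (L w)
  cube : ∀ v, L (L (L v)) = 0

/-- the logarithm of an isometry of order three -/
def lg (x : V ≃ₗ[ZMod 3] V) : V →ₗ[ZMod 3] V := (x : V →ₗ[ZMod 3] V) ∘ₗ (x : V →ₗ[ZMod 3] V) - x

theorem lg_apply (x : V ≃ₗ[ZMod 3] V) (v : V) : lg x v = x (x v) - x v := rfl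

variable {Q : QuadraticForm (ZMod 3) V}

theorem polar_self0 (v : V) (h : Q v = 0) : polar Q v v = 0 := by
  rw [polar_self', h, mul_zero]

theorem Q_of_polar {v : V} (h : polar Q v v = 0) : Q v = 0 := by
  rw [polar_self'] at h
  have : (2 : ZMod 3) * (2 * Q v) = 0 := by rw [h, mul_zero]
  rw [← mul_assoc, show (2 : ZMod 3) * 2 = 1 from rfl, one_mul] at this
  exact this

/-- `Q v = - b(v, v)` -/
theorem Q_eq (v : V) : Q v = - polar Q v v := by
  rw [polar_self']
  have h : ∀ a : ZMod 3, a = - (2 * a) := by decide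
  exact h _

theorem eq_zero_of_neg {a : ZMod 3} (h : a = - a) : a = 0 := by
  revert a; decide

theorem pol_neg_left (v w : V) : polar Q (-v) w = - polar Q v w := QuadraticMap.polar_neg_left Q v w
theorem pol_neg_right (v w : V) : polar Q v (-w) = - polar Q v w := QuadraticMap.polar_neg_right Q v w
theorem pol_add_left (v v' w : V) : polar Q (v + v') w = polar Q v w + polar Q v' w :=
  QuadraticMap.polar_add_left Q v v' w
theorem pol_add_right (v w w' : V) : polar Q v (w + w') = polar Q v w + polar Q v w' :=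
  QuadraticMap.polar_add_right Q v w w'
theorem pol_sub_left (v v' w : V) : polar Q (v - v') w = polar Q v w - polar Q v' w :=
  QuadraticMap.polar_sub_left Q v v' w
theorem pol_sub_right (v w w' : V) : polar Q v (w - w') = polar Q v w - polar Q v w' :=
  QuadraticMap.polar_sub_right Q v w w'
theorem pol_smul_left (a : ZMod 3) (v w : V) : polar Q (a • v) w = a * polar Q v w :=
  QuadraticMap.polar_smul_left Q a v w
theorem pol_smul_right (a : ZMod 3) (v w : V) : polar Q v (a • w) = a * polar Q v w :=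
  QuadraticMap.polar_smul_right Q a v w
theorem pol_comm (v w : V) : polar Q v w = polar Q w v := QuadraticMap.polar_comm Q v w
theorem pol_zero_left (w : V) : polar Q 0 w = 0 := QuadraticMap.polar_zero_left Q w
theorem pol_zero_right (w : V) : polar Q w 0 = 0 := QuadraticMap.polar_zero_right Q w

theorem Sk.of_mem {x : V ≃ₗ[ZMod 3] V} (hx : x ∈ O Q) (h3 : ∀ v, x (x (x v)) = v) : Sk Q (lg x) where
  skew v w := by
    have h1 : ∀ a b, polar Q (x a) (x b) = polar Q a b := polar_map hx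
    rw [lg_apply, lg_apply, pol_sub_left, pol_sub_right]
    have h2 : polar Q (x (x v)) w = polar Q v (x w) := by
      rw [← h1 v (x w), ← h1 (x v) (x (x w)), h3]
    have h4 : polar Q (x v) w = polar Q v (x (x w)) := by
      rw [← h1 v (x (x w)), h3]
    rw [h2, h4]
    ring
  cube v := by
    simp only [lg_apply, map_sub, h3]
    linear_combination (norm := module) (1 : ℤ) • add3 (x v) - (1 : ℤ) • add3 (x (x v))

theorem apply_eq {x : V ≃ₗ[ZMod 3] V} (h3 : ∀ v, x (x (x v)) = v) (v : V) :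
    x v = v + lg x v - lg x (lg x v) := by
  simp only [lg_apply, map_sub, h3]
  have h6 := add3 (x v)
  have : v + (x (x v) - x v) - (x v - v - (v - x (x v))) =
    x v + (v + v + v) - (x v + x v + x v) := by abel
  rw [this, h6, add3, add_zero, sub_zero]

theorem Sk.polLL {L : V →ₗ[ZMod 3] V} (h : Sk Q L) (v w : V) : polar Q (L (L v)) w = polar Q v (L (L w)) := by
  rw [h.skew, h.skew, neg_neg]

theorem Sk.pol0 {L : V →ₗ[ZMod 3] V} (h : Sk Q L) (v : V) : polar Q v (L v) = 0 := by
  apply eq_zero_of_neg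
  nth_rewrite 1 [pol_comm]
  exact h.skew v v

/-- the exponential -/
def ex {L : V →ₗ[ZMod 3] V} (h : Sk Q L) : V ≃ₗ[ZMod 3] V :=
  LinearEquiv.ofLinearMap (LinearMap.id + L - L ∘ₗ L) (LinearMap.id - L - L ∘ₗ L)
    (by
      ext v
      simp only [LinearMap.comp_apply, LinearMap.sub_apply, LinearMap.add_apply, LinearMap.id_apply, map_sub,
        h.cube, map_zero]
      linear_combination (norm := module) (-1 : ℤ) • add3 (L (L v)))
    (by
      ext v
      simp only [LinearMap.comp_apply, LinearMap.sub_apply, LinearMap.add_apply, LinearMap.id_apply, map_sub, map_add,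
        h.cube, map_zero]
      linear_combination (norm := module) (-1 : ℤ) • add3 (L (L v)))

theorem ex_apply {L : V →ₗ[ZMod 3] V} (h : Sk Q L) (v : V) : ex h v = v + L v - L (L v) := rfl

theorem ex_ex {L : V →ₗ[ZMod 3] V} (h : Sk Q L) (v : V) : ex h (ex h v) = v - L v - L (L v) := by
  simp only [ex_apply, map_sub, map_add, h.cube, map_zero]
  have h1 := add3 (L v)
  have e : v + L v - L (L v) + (L v + L (L v) - 0) - (L (L v) + 0 - 0) = v - L v - L (L v) + (L v + L v + L v) := by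
    abel
  rw [e, h1, add_zero]

theorem ex_cube {L : V →ₗ[ZMod 3] V} (h : Sk Q L) (v : V) : ex h (ex h (ex h v)) = v := by
  rw [ex_ex]
  simp only [ex_apply, map_sub, map_add, h.cube, map_zero]
  have := add3 (L (L v))
  have e : v + L v - L (L v) - (L v + L (L v) - 0) - (L (L v) + 0 - 0) = v - (L (L v) + L (L v) + L (L v)) := by
    abel
  rw [e, this, sub_zero]

theorem lg_ex {L : V →ₗ[ZMod 3] V} (h : Sk Q L) : lg (ex h) = L := by
  ext v
  rw [lg_apply, ex_ex, ex_apply]
  have h1 := add3 (L v)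
  have e : v - L v - L (L v) - (v + L v - L (L v)) = L v - (L v + L v + L v) := by abel
  rw [e, h1, sub_zero]

theorem ex_mem {L : V →ₗ[ZMod 3] V} (h : Sk Q L) : ex h ∈ O Q := by
  rw [mem_O]
  intro v
  rw [Q_eq, Q_eq v, neg_inj, ex_apply]
  simp only [pol_sub_left, pol_sub_right, pol_add_left, pol_add_right]
  have h1 : polar Q v (L v) = 0 := h.pol0 v
  have h2 : polar Q (L v) v = 0 := by rw [pol_comm, h1]
  have h3 : polar Q (L v) (L v) = - polar Q v (L (L v)) := h.skew _ _
  have h4 : polar Q (L (L v)) v = polar Q v (L (L v)) := pol_comm _ _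
  have h5 : polar Q (L v) (L (L v)) = 0 := by rw [h.skew, h.cube, pol_zero_right, neg_zero]
  have h6 : polar Q (L (L v)) (L v) = 0 := by rw [pol_comm, h5]
  have h7 : polar Q (L (L v)) (L (L v)) = 0 := by rw [h.polLL, h.cube, pol_zero_right]
  rw [h1, h2, h3, h4, h5, h6, h7]
  generalize polar Q v v = a
  generalize polar Q v (L (L v)) = b
  revert a b
  decide

/-- powers -/
theorem Sk.pow {L : V →ₗ[ZMod 3] V} (h : Sk Q L) (k : ℕ) : ∀ v w, polar Q ((L ^ k) v) w = (-1) ^ k * polar Q v ((L ^ k) w) := by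
  induction k with
  | zero => intro v w; simp
  | succ k ih =>
    intro v w
    have e : (L ^ (k + 1)) w = L ((L ^ k) w) := by rw [pow_succ', Module.End.mul_apply]
    have e' : (L ^ (k + 1)) v = (L ^ k) (L v) := by rw [pow_succ, Module.End.mul_apply]
    rw [e', e, ih, h.skew]
    ring

theorem conj_of_comm {x y : V ≃ₗ[ZMod 3] V} (hx : ∀ v, x (x (x v)) = v) (hy : ∀ v, y (y (y v)) = v)
    {g : V ≃ₗ[ZMod 3] V} (hg : ∀ v, g (lg x v) = lg y (g v)) : g * x * g⁻¹ = y := by
  rw [mul_inv_eq_iff_eq_mul]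
  ext v
  show g (x v) = y (g v)
  rw [apply_eq hx, apply_eq hy, map_sub, map_add, hg, hg, hg]

theorem comm_of_conj {x y g : V ≃ₗ[ZMod 3] V} (h : g * x * g⁻¹ = y) (v : V) : g (lg x v) = lg y (g v) := by
  rw [mul_inv_eq_iff_eq_mul] at h
  have h1 : ∀ v, g (x v) = y (g v) := fun v => LinearEquiv.congr_fun h v
  rw [lg_apply, lg_apply, map_sub, h1, h1]

/-! ### Frames -/

/-- A shape: generators with block lengths and a pairing. -/
structure Shp where
  m : ℕ
  l : Fin m → ℕ
  s : Fin m → Fin m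

/-- the consistency conditions of a shape -/
structure Shp.Ok (S : Shp) : Prop where
  pos : ∀ i, 0 < S.l i
  len : ∀ i, S.l (S.s i) = S.l i
  inv : ∀ i, S.s (S.s i) = i

/-- `p` is a frame of shape `S` with values `τ` -/
structure Fr (Q : QuadraticForm (ZMod 3) V) (L : V →ₗ[ZMod 3] V) (S : Shp) (τ : Fin S.m → ZMod 3) (p : Fin S.m → V) :
    Prop where
  top : ∀ i, (L ^ S.l i) (p i) = 0
  pair : ∀ i j k, polar Q (p i) ((L ^ k) (p j)) = if j = S.s i ∧ k + 1 = S.l i then τ i else 0
  ne : ∀ i, τ i ≠ 0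

/-- the vectors of a frame -/
def vec (L : V →ₗ[ZMod 3] V) (S : Shp) (p : Fin S.m → V) (x : Σ i : Fin S.m, Fin (S.l i)) : V :=
  (L ^ (x.2 : ℕ)) (p x.1)

variable {L L' : V →ₗ[ZMod 3] V} {S : Shp} {τ τ' : Fin S.m → ZMod 3} {p p' : Fin S.m → V}

theorem Fr.polar_vec (hL : Sk Q L) (hp : Fr Q L S τ p) (x y : Σ i : Fin S.m, Fin (S.l i)) :
    polar Q (vec L S p x) (vec L S p y)
      = (-1) ^ (x.2 : ℕ) * (if y.1 = S.s x.1 ∧ ((x.2 : ℕ) + (y.2 : ℕ)) + 1 = S.l x.1 then τ x.1 else 0) := by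
  rw [vec, vec, hL.pow, ← Module.End.mul_apply, ← pow_add, hp.pair]

/-- the partner of an index -/
def partner (S : Shp) (hS : S.Ok) (x : Σ i : Fin S.m, Fin (S.l i)) : Σ i : Fin S.m, Fin (S.l i) :=
  ⟨S.s x.1, ⟨S.l x.1 - 1 - (x.2 : ℕ), by
    have := x.2.2
    rw [hS.len]
    omega⟩⟩

theorem Fr.polar_partner (hL : Sk Q L) (hS : S.Ok) (hp : Fr Q L S τ p) (x y : Σ i : Fin S.m, Fin (S.l i)) :
    polar Q (vec L S p x) (vec L S p (partner S hS y)) = if x = y then (-1) ^ (x.2 : ℕ) * τ x.1 else 0 := by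
  rw [hp.polar_vec hL]
  obtain ⟨i, s⟩ := x
  obtain ⟨j, t⟩ := y
  have hs := s.2
  have ht := t.2
  by_cases hij : i = j
  · subst hij
    by_cases hst : s = t
    · subst hst
      rw [if_pos rfl, if_pos]
      refine ⟨rfl, ?_⟩
      simp only [partner]
      omega
    · rw [if_neg, if_neg, mul_zero]
      · intro h
        apply hst
        simpa using h
      · rintro ⟨-, h⟩
        simp only [partner] at h
        apply hst
        apply Fin.ext
        omega
  · rw [if_neg, if_neg, mul_zero]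
    · intro h
      exact hij (congrArg Sigma.fst h)
    · rintro ⟨h, -⟩
      simp only [partner] at h
      apply hij
      rw [← hS.inv i, ← h, hS.inv]

theorem neg_one_pow_ne (k : ℕ) : ((-1 : ZMod 3)) ^ k ≠ 0 := pow_ne_zero _ (by decide)

theorem Fr.linearIndependent (hL : Sk Q L) (hS : S.Ok) (hp : Fr Q L S τ p) :
    LinearIndependent (ZMod 3) (vec L S p) := by
  rw [Fintype.linearIndependent_iff]
  intro c hc y
  have h := congrArg (fun v => polarBilin Q v (vec L S p (partner S hS y))) hc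
  simp only [map_sum, LinearMap.sum_apply, map_smul, LinearMap.smul_apply, map_zero, LinearMap.zero_apply] at h
  rw [Finset.sum_eq_single y] at h
  · rw [polarBilin_apply_apply, hp.polar_partner hL hS, if_pos rfl, smul_eq_mul] at h
    rcases mul_eq_zero.1 h with h | h
    · exact h
    · rcases mul_eq_zero.1 h with h | h
      · exact absurd h (neg_one_pow_ne _)
      · exact absurd h (hp.ne _)
  · intro x _ hx
    rw [polarBilin_apply_apply, hp.polar_partner hL hS, if_neg hx, smul_zero]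
  · intro h; exact absurd (Finset.mem_univ _) h

/-- the dimension of a frame -/
def Shp.dim (S : Shp) : ℕ := ∑ i, S.l i

theorem Shp.card (S : Shp) : Fintype.card (Σ i : Fin S.m, Fin (S.l i)) = S.dim := by
  rw [Fintype.card_sigma]
  simp [Shp.dim]

variable [FiniteDimensional (ZMod 3) V]

/-- the basis of a frame -/
noncomputable def Fr.basis (hL : Sk Q L) (hS : S.Ok) (hp : Fr Q L S τ p) (hd : S.dim = Module.finrank (ZMod 3) V) :
    Module.Basis (Σ i : Fin S.m, Fin (S.l i)) (ZMod 3) V :=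
  Module.Basis.mk (hp.linearIndependent hL hS) (by
    rw [top_le_iff]
    apply (hp.linearIndependent hL hS).span_eq_top_of_card_eq_finrank'
    rw [S.card, hd])

theorem Fr.basis_apply (hL : Sk Q L) (hS : S.Ok) (hp : Fr Q L S τ p) (hd : S.dim = Module.finrank (ZMod 3) V)
    (x : Σ i : Fin S.m, Fin (S.l i)) : hp.basis hL hS hd x = vec L S p x := by
  rw [Fr.basis, Module.Basis.mk_apply]

omit [FiniteDimensional (ZMod 3) V] in
theorem apply_vec (hp : Fr Q L S τ p) (i : Fin S.m) (s : ℕ) (hs : s < S.l i) :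
    L (vec L S p ⟨i, ⟨s, hs⟩⟩) = if h : s + 1 < S.l i then vec L S p ⟨i, ⟨s + 1, h⟩⟩ else 0 := by
  have h1 : L (vec L S p ⟨i, ⟨s, hs⟩⟩) = (L ^ (s + 1)) (p i) := by
    rw [vec, pow_succ', Module.End.mul_apply]
  rw [h1]
  split_ifs with h
  · rfl
  · have : s + 1 = S.l i := by omega
    rw [this, hp.top]

/-- **Frames of the same shape and the same values are conjugate.** -/
theorem exists_conj (hL : Sk Q L) (hL' : Sk Q L') (hS : S.Ok) (hp : Fr Q L S τ p) (hp' : Fr Q L' S τ p')
    (hd : S.dim = Module.finrank (ZMod 3) V) :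
    ∃ g : V ≃ₗ[ZMod 3] V, g ∈ O Q ∧ (∀ v, g (L v) = L' (g v)) ∧ ∀ i, g (p i) = p' i := by
  set b := hp.basis hL hS hd with hb
  set b' := hp'.basis hL' hS hd with hb'
  have hbx : ∀ x, b x = vec L S p x := hp.basis_apply hL hS hd
  have hbx' : ∀ x, b' x = vec L' S p' x := hp'.basis_apply hL' hS hd
  set g : V ≃ₗ[ZMod 3] V := b.equiv b' (Equiv.refl _) with hg
  have hgb : ∀ x, g (vec L S p x) = vec L' S p' x := by
    intro x
    rw [← hbx, ← hbx', hg, Module.Basis.equiv_apply, Equiv.refl_apply]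
  have hpol : ∀ v w, polar Q (g v) (g w) = polar Q v w := by
    have h1 : (polarBilin Q).compl₁₂ (g : V →ₗ[ZMod 3] V) (g : V →ₗ[ZMod 3] V) = polarBilin Q := by
      refine LinearMap.ext_basis b b fun x y => ?_
      rw [LinearMap.compl₁₂_apply, polarBilin_apply_apply, polarBilin_apply_apply]
      show polar Q (g (b x)) (g (b y)) = _
      rw [hbx, hbx, hgb, hgb, hp.polar_vec hL, hp'.polar_vec hL']
    intro v w
    have := congrArg (fun B => B v w) h1
    exact this
  refine ⟨g, ?_, ?_, ?_⟩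
  · rw [mem_O]
    intro v
    rw [Q_eq, Q_eq v, hpol]
  · have h2 : (g : V →ₗ[ZMod 3] V) ∘ₗ L = L' ∘ₗ (g : V →ₗ[ZMod 3] V) := by
      refine b.ext fun x => ?_
      show g (L (b x)) = L' (g (b x))
      obtain ⟨i, ⟨s, hs⟩⟩ := x
      rw [hbx, hgb, apply_vec hp, apply_vec hp']
      split_ifs with h
      · exact hgb _
      · exact map_zero _
    intro v
    exact LinearMap.congr_fun h2 v
  · intro i
    have hi : 0 < S.l i := hS.pos i
    have h1 := hgb ⟨i, ⟨0, hi⟩⟩
    simpa [vec] using h1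

/-! ### The discriminant -/

theorem sq_eq_one {u : ZMod 3} (h : u ≠ 0) : u * u = 1 := by
  revert u; decide

omit [FiniteDimensional (ZMod 3) V] in
theorem gram_eq {ι : Type*} [Fintype ι] [DecidableEq ι] (b b' : Module.Basis ι (ZMod 3) V) :
    (Matrix.of fun x y => polar Q (b' x) (b' y)).det = (Matrix.of fun x y => polar Q (b x) (b y)).det := by
  have h1 : LinearMap.BilinForm.toMatrix b' (polarBilin Q)
      = (b.toMatrix b').transpose * LinearMap.BilinForm.toMatrix b (polarBilin Q) * b.toMatrix b' := by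
    rw [LinearMap.BilinForm.toMatrix_mul_basis_toMatrix b b']
  have h2 : (b.toMatrix b').det ≠ 0 := by
    intro h
    have h3 : (b.toMatrix b') * (b'.toMatrix b) = 1 := Module.Basis.toMatrix_mul_toMatrix_flip b b'
    have h4 := congrArg Matrix.det h3
    rw [Matrix.det_mul, h, zero_mul, Matrix.det_one] at h4
    exact zero_ne_one h4
  have h5 : ∀ c : Module.Basis ι (ZMod 3) V, (Matrix.of fun x y => polar Q (c x) (c y)) =
      LinearMap.BilinForm.toMatrix c (polarBilin Q) := by
    intro c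
    ext x y
    rw [LinearMap.BilinForm.toMatrix_apply]
    rfl
  rw [h5, h5, h1, Matrix.det_mul, Matrix.det_mul, Matrix.det_transpose, mul_comm, ← mul_assoc, sq_eq_one h2,
    one_mul]

/-- **The discriminant of a frame.** -/
theorem disc (hL : Sk Q L) (hL' : Sk Q L') (hS : S.Ok) (hp : Fr Q L S τ p) (hp' : Fr Q L' S τ' p')
    (hd : S.dim = Module.finrank (ZMod 3) V) : ∏ i, τ i ^ S.l i = ∏ i, τ' i ^ S.l i := by
  classical
  have h1 := gram_eq (Q := Q) (hp.basis hL hS hd) (hp'.basis hL' hS hd)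
  simp only [Fr.basis_apply] at h1
  set M := (Matrix.of fun x y => polar Q (vec L S p x) (vec L S p y)) with hM
  set M' := (Matrix.of fun x y => polar Q (vec L' S p' x) (vec L' S p' y)) with hM'
  have h2 : M' = Matrix.diagonal (fun x : Σ i : Fin S.m, Fin (S.l i) => τ' x.1 * τ x.1) * M := by
    ext x y
    rw [Matrix.diagonal_mul, hM, hM', Matrix.of_apply, Matrix.of_apply, hp.polar_vec hL, hp'.polar_vec hL']
    split_ifs
    · have h3 := sq_eq_one (hp.ne x.1)
      linear_combination (-(-1) ^ (x.2 : ℕ) * τ' x.1) * h3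
    · ring
  have h3 : M.det ≠ 0 := by
    intro h
    obtain ⟨v, hv, hv'⟩ := Matrix.exists_vecMul_eq_zero_iff.2 h
    apply hv
    ext y
    have h4 := congrFun hv' (partner S hS y)
    rw [Matrix.vecMul, dotProduct] at h4
    rw [Finset.sum_eq_single y] at h4
    · rw [hM, Matrix.of_apply, hp.polar_partner hL hS, if_pos rfl] at h4
      rcases mul_eq_zero.1 h4 with h | h
      · exact h
      · rcases mul_eq_zero.1 h with h | h
        · exact absurd h (neg_one_pow_ne _)
        · exact absurd h (hp.ne _)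
    · intro x _ hx
      rw [hM, Matrix.of_apply, hp.polar_partner hL hS, if_neg hx, mul_zero]
    · intro h; exact absurd (Finset.mem_univ _) h
  rw [h2, Matrix.det_mul, Matrix.det_diagonal] at h1
  have h4 : ∏ x : (Σ i : Fin S.m, Fin (S.l i)), τ' x.1 * τ x.1 = 1 := by
    apply mul_right_cancel₀ h3
    rw [h1, one_mul]
  rw [Finset.prod_mul_distrib, Fintype.prod_sigma, Fintype.prod_sigma] at h4
  simp only [Finset.prod_const, Finset.card_univ, Fintype.card_fin] at h4
  have h5 : ∏ i, τ i ^ S.l i ≠ 0 := Finset.prod_ne_zero_iff.2 fun i _ => pow_ne_zero _ (hp.ne i)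
  have h6 := sq_eq_one h5
  calc ∏ i, τ i ^ S.l i = ((∏ i, τ' i ^ S.l i) * ∏ i, τ i ^ S.l i) * ∏ i, τ i ^ S.l i := by rw [h4, one_mul]
    _ = ∏ i, τ' i ^ S.l i := by rw [mul_assoc, h6, mul_one]

end Cfsg.Agent.H844.Unip
end

-- part: H844/UnipPeel
section
/-!
# Isometries of order three of quadratic spaces over `F₃` (helper844), II: peeling of blocks
-/

set_option autoImplicit false

namespace Cfsg.Agent.H844.Unip

open QuadraticMap Cfsg.Agent.LieClassical.OrthCore

variable {V : Type*} [AddCommGroup V] [Module (ZMod 3) V] {Q : QuadraticForm (ZMod 3) V} {L : V →ₗ[ZMod 3] V}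

/-! ### Shapes -/

/-- add a self-paired generator -/
def Shp.bl (l : ℕ) (S : Shp) : Shp := ⟨S.m + 1, Fin.cons l S.l, Fin.cons 0 (Fin.succ ∘ S.s)⟩

/-- add a pair of generators of length two -/
def Shp.two (S : Shp) : Shp :=
  ⟨S.m + 2, Fin.cons 2 (Fin.cons 2 S.l), Fin.cons 1 (Fin.cons 0 (Fin.succ ∘ Fin.succ ∘ S.s))⟩

/-- the empty shape -/
def Shp.nil : Shp := ⟨0, Fin.elim0, Fin.elim0⟩

theorem Shp.nil_ok : Shp.nil.Ok := ⟨fun i => i.elim0, fun i => i.elim0, fun i => i.elim0⟩

theorem Shp.Ok.bl {S : Shp} (hS : S.Ok) {l : ℕ} (hl : 0 < l) : (Shp.bl l S).Ok where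
  pos i := by
    refine Fin.cases ?_ (fun i => ?_) i
    · exact hl
    · exact hS.pos i
  len i := by
    refine Fin.cases ?_ (fun i => ?_) i
    · rfl
    · exact hS.len i
  inv i := by
    refine Fin.cases ?_ (fun i => ?_) i
    · rfl
    · show (Fin.cons 0 (Fin.succ ∘ S.s) : Fin (S.m + 1) → Fin (S.m + 1)) (Fin.succ (S.s i)) = _
      rw [Fin.cons_succ, Function.comp_apply, hS.inv]

theorem Shp.Ok.two {S : Shp} (hS : S.Ok) : (Shp.two S).Ok where
  pos i := by
    refine Fin.cases ?_ (fun i => Fin.cases ?_ (fun i => ?_) i) i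
    · exact Nat.succ_pos _
    · exact Nat.succ_pos _
    · exact hS.pos i
  len i := by
    refine Fin.cases ?_ (fun i => Fin.cases ?_ (fun i => ?_) i) i
    · rfl
    · rfl
    · exact hS.len i
  inv i := by
    refine Fin.cases ?_ (fun i => Fin.cases ?_ (fun i => ?_) i) i
    · rfl
    · rfl
    · show (Fin.cons 1 (Fin.cons 0 (Fin.succ ∘ Fin.succ ∘ S.s)) : Fin (S.m + 2) → Fin (S.m + 2))
        (Fin.succ (Fin.succ (S.s i))) = _
      rw [Fin.cons_succ, Fin.cons_succ, Function.comp_apply, Function.comp_apply, hS.inv]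

theorem Fr.nil : Fr Q L Shp.nil Fin.elim0 Fin.elim0 := ⟨fun i => i.elim0, fun i => i.elim0, fun i => i.elim0⟩

/-- add a self-paired generator to a frame -/
theorem Fr.bl (hL : Sk Q L) {S : Shp} {τ : Fin S.m → ZMod 3} {p : Fin S.m → V} (hp : Fr Q L S τ p) {l : ℕ}
    {c : ZMod 3} {v : V} (hc : c ≠ 0) (hl : (L ^ l) v = 0)
    (hv : ∀ k, polar Q v ((L ^ k) v) = if k + 1 = l then c else 0) (hvp : ∀ i k, polar Q v ((L ^ k) (p i)) = 0) :
    Fr Q L (Shp.bl l S) (Fin.cons c τ) (Fin.cons v p) where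
  top i := by
    refine Fin.cases ?_ (fun i => ?_) i
    · exact hl
    · exact hp.top i
  pair i j k := by
    refine Fin.cases (Fin.cases ?_ (fun j => ?_) j) (fun i => Fin.cases ?_ (fun j => ?_) j) i
    · show polar Q v ((L ^ k) v) = _
      rw [hv]
      simp [Shp.bl]
    · show polar Q v ((L ^ k) (p j)) = _
      rw [hvp]
      simp [Shp.bl]
    · show polar Q (p i) ((L ^ k) v) = _
      have h : polar Q (p i) ((L ^ k) v) = 0 := by
        have h1 := hL.pow k (p i) v
        rw [pol_comm, hvp] at h1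
        rcases mul_eq_zero.1 h1.symm with h2 | h2
        · exact absurd h2 (neg_one_pow_ne k)
        · exact h2
      rw [h]
      simp [Shp.bl, (Fin.succ_ne_zero _).symm]
    · show polar Q (p i) ((L ^ k) (p j)) = _
      rw [hp.pair]
      simp [Shp.bl]
  ne i := by
    refine Fin.cases ?_ (fun i => ?_) i
    · exact hc
    · exact hp.ne i

/-- add a pair of generators of length two to a frame -/
theorem Fr.two (hL : Sk Q L) {S : Shp} {τ : Fin S.m → ZMod 3} {p : Fin S.m → V} (hp : Fr Q L S τ p) {u w : V}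
    (hu : (L ^ 2) u = 0) (hw : (L ^ 2) w = 0) (huu : ∀ k, polar Q u ((L ^ k) u) = 0)
    (hww : ∀ k, polar Q w ((L ^ k) w) = 0) (huw : ∀ k, polar Q u ((L ^ k) w) = if k = 1 then 1 else 0)
    (hup : ∀ i k, polar Q u ((L ^ k) (p i)) = 0) (hwp : ∀ i k, polar Q w ((L ^ k) (p i)) = 0) :
    Fr Q L (Shp.two S) (Fin.cons 1 (Fin.cons (-1) τ)) (Fin.cons u (Fin.cons w p)) := by
  have hsw : ∀ a b : V, ∀ k, polar Q a ((L ^ k) b) = 0 → polar Q b ((L ^ k) a) = 0 := by
    intro a b k h
    have h1 := hL.pow k b a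
    rw [pol_comm, h] at h1
    rcases mul_eq_zero.1 h1.symm with h2 | h2
    · exact absurd h2 (neg_one_pow_ne k)
    · exact h2
  have key : ∀ (i j : Fin (S.m + 2)) (k : ℕ), polar Q ((Fin.cons u (Fin.cons w p : Fin (S.m + 1) → V) : Fin (S.m + 2) → V) i)
      ((L ^ k) ((Fin.cons u (Fin.cons w p : Fin (S.m + 1) → V) : Fin (S.m + 2) → V) j)) =
      if j = (Fin.cons 1 (Fin.cons 0 (Fin.succ ∘ Fin.succ ∘ S.s)) : Fin (S.m + 2) → Fin (S.m + 2)) i ∧
        k + 1 = (Fin.cons 2 (Fin.cons 2 S.l : Fin (S.m + 1) → ℕ) : Fin (S.m + 2) → ℕ) i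
      then (Fin.cons 1 (Fin.cons (-1) τ : Fin (S.m + 1) → ZMod 3) : Fin (S.m + 2) → ZMod 3) i else 0 := by
    intro i j k
    have n1 : ∀ j : Fin S.m, (Fin.succ (Fin.succ j)) ≠ (0 : Fin (S.m + 2)) := fun j => Fin.succ_ne_zero _
    have n2 : ∀ j : Fin S.m, (Fin.succ (Fin.succ j)) ≠ (Fin.succ 0 : Fin (S.m + 2)) := fun j => by
      rw [Ne, Fin.succ_inj]
      exact Fin.succ_ne_zero j
    have n3 : (1 : Fin (S.m + 2)) = Fin.succ 0 := Fin.succ_zero_eq_one.symm
    have n4 : (Fin.succ 0 : Fin (S.m + 2)) ≠ 0 := Fin.succ_ne_zero _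
    rcases Fin.eq_zero_or_eq_succ i with rfl | ⟨i, rfl⟩
    · simp only [Fin.cons_zero]
      rw [n3]
      rcases Fin.eq_zero_or_eq_succ j with rfl | ⟨j, rfl⟩
      · simp only [Fin.cons_zero]
        rw [huu, if_neg]
        rintro ⟨h, -⟩
        exact n4 h.symm
      · rcases Fin.eq_zero_or_eq_succ j with rfl | ⟨j, rfl⟩
        · simp only [Fin.cons_zero, Fin.cons_succ]
          rw [huw]
          simp
        · simp only [Fin.cons_succ]
          rw [hup, if_neg]
          rintro ⟨h, -⟩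
          exact n2 _ h
    · rcases Fin.eq_zero_or_eq_succ i with rfl | ⟨i, rfl⟩
      · simp only [Fin.cons_zero, Fin.cons_succ]
        rcases Fin.eq_zero_or_eq_succ j with rfl | ⟨j, rfl⟩
        · simp only [Fin.cons_zero]
          have h1 := hL.pow k w u
          rw [pol_comm, huw] at h1
          by_cases hk : k = 1
          · subst hk
            rw [if_pos rfl] at h1
            simp only [pow_one] at h1 ⊢
            simp only [true_and, if_true]
            linear_combination h1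
          · rw [if_neg hk] at h1
            rw [if_neg]
            · rcases mul_eq_zero.1 h1.symm with h2 | h2
              · exact absurd h2 (neg_one_pow_ne k)
              · exact h2
            · rintro ⟨-, h⟩
              omega
        · rcases Fin.eq_zero_or_eq_succ j with rfl | ⟨j, rfl⟩
          · simp only [Fin.cons_zero, Fin.cons_succ]
            rw [hww, if_neg]
            rintro ⟨h, -⟩
            exact n4 h
          · simp only [Fin.cons_succ]
            rw [hwp, if_neg]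
            rintro ⟨h, -⟩
            exact n1 _ h
      · simp only [Fin.cons_succ, Function.comp_apply]
        rcases Fin.eq_zero_or_eq_succ j with rfl | ⟨j, rfl⟩
        · simp only [Fin.cons_zero]
          rw [hsw _ _ _ (hup i k), if_neg]
          rintro ⟨h, -⟩
          exact n1 _ h.symm
        · rcases Fin.eq_zero_or_eq_succ j with rfl | ⟨j, rfl⟩
          · simp only [Fin.cons_zero, Fin.cons_succ]
            rw [hsw _ _ _ (hwp i k), if_neg]
            rintro ⟨h, -⟩
            exact n2 _ h.symm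
          · simp only [Fin.cons_succ]
            rw [hp.pair]
            simp only [Fin.succ_inj]
  refine ⟨fun i => ?_, key, fun i => ?_⟩
  · refine Fin.cases ?_ (fun i => Fin.cases ?_ (fun i => ?_) i) i
    · exact hu
    · exact hw
    · exact hp.top i
  · refine Fin.cases ?_ (fun i => Fin.cases ?_ (fun i => ?_) i) i
    · show (1 : ZMod 3) ≠ 0
      decide
    · show (-1 : ZMod 3) ≠ 0
      decide
    · exact hp.ne i

/-! ### Peeling -/

/-- `W` is nondegenerate -/
def Nd (Q : QuadraticForm (ZMod 3) V) (W : Submodule (ZMod 3) V) : Prop :=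
  ∀ w ∈ W, (∀ y ∈ W, polar Q w y = 0) → w = 0

/-- `W` is invariant -/
def Iv (L : V →ₗ[ZMod 3] V) (W : Submodule (ZMod 3) V) : Prop := ∀ w ∈ W, L w ∈ W

/-- the orthogonal complement in `W` of the block generated by `v` -/
def pp (Q : QuadraticForm (ZMod 3) V) (L : V →ₗ[ZMod 3] V) (W : Submodule (ZMod 3) V) (v : V) :
    Submodule (ZMod 3) V :=
  W ⊓ LinearMap.ker ((polarBilin Q v).prod ((polarBilin Q v ∘ₗ L).prod (polarBilin Q v ∘ₗ L ∘ₗ L)))

theorem mem_pp {W : Submodule (ZMod 3) V} {v y : V} :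
    y ∈ pp Q L W v ↔ y ∈ W ∧ polar Q v y = 0 ∧ polar Q v (L y) = 0 ∧ polar Q v (L (L y)) = 0 := by
  rw [pp, Submodule.mem_inf, LinearMap.mem_ker]
  show y ∈ W ∧ (polar Q v y, polar Q v (L y), polar Q v (L (L y))) = (0, 0, 0) ↔ _
  simp only [Prod.mk.injEq]

theorem pp_iv (hL : Sk Q L) {W : Submodule (ZMod 3) V} (hW : Iv L W) (v : V) : Iv L (pp Q L W v) := by
  intro y hy
  rw [mem_pp] at hy ⊢
  exact ⟨hW y hy.1, hy.2.2.1, hy.2.2.2, by rw [hL.cube, pol_zero_right]⟩

theorem finrank_inf_ker [FiniteDimensional (ZMod 3) V] {T : Type*} [AddCommGroup T] [Module (ZMod 3) T]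
    [FiniteDimensional (ZMod 3) T] (W : Submodule (ZMod 3) V) (φ : V →ₗ[ZMod 3] T) (h : ∀ t, ∃ w ∈ W, φ w = t) :
    Module.finrank (ZMod 3) W = Module.finrank (ZMod 3) ↥(W ⊓ LinearMap.ker φ) + Module.finrank (ZMod 3) T := by
  have h1 := LinearMap.finrank_range_add_finrank_ker (φ.domRestrict W)
  have h2 : LinearMap.range (φ.domRestrict W) = ⊤ := by
    rw [eq_top_iff]
    rintro t -
    obtain ⟨w, hw, rfl⟩ := h t
    exact ⟨⟨w, hw⟩, rfl⟩
  have h3 : Module.finrank (ZMod 3) (LinearMap.ker (φ.domRestrict W)) = Module.finrank (ZMod 3) ↥(W ⊓ LinearMap.ker φ) := by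
    have h4 : (LinearMap.ker (φ.domRestrict W)).map W.subtype = W ⊓ LinearMap.ker φ := by
      ext y
      simp only [Submodule.mem_map, LinearMap.mem_ker, Submodule.mem_inf]
      constructor
      · rintro ⟨⟨z, hz⟩, h5, rfl⟩
        exact ⟨hz, h5⟩
      · rintro ⟨h5, h6⟩
        exact ⟨⟨y, h5⟩, h6, rfl⟩
    rw [← h4]
    exact (Submodule.equivMapOfInjective W.subtype W.injective_subtype _).finrank_eq
  rw [h2, finrank_top, h3] at h1
  omega

theorem nd_of_proj {W W' : Submodule (ZMod 3) V} (hW : Nd Q W) (hle : W' ≤ W)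
    (h : ∀ w ∈ W, ∃ w' ∈ W', ∀ y ∈ W', polar Q y w = polar Q y w') : Nd Q W' := by
  intro y hy hy'
  apply hW y (hle hy)
  intro w hw
  obtain ⟨w', hw', h1⟩ := h w hw
  rw [h1 y hy, hy' w' hw']

section

variable [FiniteDimensional (ZMod 3) V] {W : Submodule (ZMod 3) V}

omit [FiniteDimensional (ZMod 3) V] in
theorem three_table (hL : Sk Q L) {v : V} (hQ : Q v = 0) :
    polar Q v v = 0 ∧ polar Q v (L v) = 0 ∧ polar Q (L v) v = 0 ∧ polar Q (L v) (L v) = - polar Q v (L (L v)) ∧
    polar Q (L (L v)) v = polar Q v (L (L v)) ∧ polar Q (L v) (L (L v)) = 0 ∧ polar Q (L (L v)) (L v) = 0 ∧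
    polar Q (L (L v)) (L (L v)) = 0 := by
  have h1 : polar Q v (L v) = 0 := hL.pol0 v
  have h5 : polar Q (L v) (L (L v)) = 0 := by rw [hL.skew, hL.cube, pol_zero_right, neg_zero]
  exact ⟨polar_self0 v hQ, h1, by rw [pol_comm, h1], hL.skew _ _, pol_comm _ _, h5, by rw [pol_comm, h5],
    by rw [hL.polLL, hL.cube, pol_zero_right]⟩

theorem inv_mul_self3 {c : ZMod 3} (hc : c ≠ 0) : c * c = 1 := by revert c; decide

/-- splitting off a block of length three -/
theorem three_split (hL : Sk Q L) (hW : Iv L W) (hN : Nd Q W) {v : V} (hv : v ∈ W) (hQ : Q v = 0)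
    (hc : polar Q v (L (L v)) ≠ 0) :
    Nd Q (pp Q L W v) ∧ Module.finrank (ZMod 3) W = Module.finrank (ZMod 3) (pp Q L W v) + 3 := by
  obtain ⟨t1, t2, t3, t4, t5, t6, t7, t8⟩ := three_table hL hQ
  set c := polar Q v (L (L v)) with hcdef
  have hcc : c * c = 1 := inv_mul_self3 hc
  constructor
  · apply nd_of_proj hN (fun y hy => (mem_pp.1 hy).1)
    intro w hw
    refine ⟨w - (c * polar Q v (L (L w))) • v - (c * polar Q v (L w)) • L v - (c * polar Q v w) • L (L v), ?_, ?_⟩
    · rw [mem_pp]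
      refine ⟨?_, ?_, ?_, ?_⟩
      · refine W.sub_mem (W.sub_mem (W.sub_mem hw (W.smul_mem _ hv)) (W.smul_mem _ (hW v hv)))
          (W.smul_mem _ (hW _ (hW v hv)))
      · simp only [pol_sub_right, pol_smul_right, t1, t2, ← hcdef]
        linear_combination (-polar Q v w) * hcc
      · simp only [map_sub, map_smul, hL.cube, pol_sub_right, pol_smul_right, t2, ← hcdef, pol_zero_right]
        linear_combination (-polar Q v (L w)) * hcc
      · simp only [map_sub, map_smul, hL.cube, map_zero, pol_sub_right, pol_smul_right, ← hcdef, pol_zero_right]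
        linear_combination (-polar Q v (L (L w))) * hcc
    · intro y hy
      obtain ⟨-, h1, h2, h3⟩ := mem_pp.1 hy
      have h1' : polar Q y v = 0 := by rw [pol_comm, h1]
      have h2' : polar Q y (L v) = 0 := by
        rw [pol_comm, hL.skew, h2, neg_zero]
      have h3' : polar Q y (L (L v)) = 0 := by rw [pol_comm, hL.polLL, h3]
      simp only [pol_sub_right, pol_smul_right, h1', h2', h3']
      ring
  · rw [pp, finrank_inf_ker W ((polarBilin Q v).prod ((polarBilin Q v ∘ₗ L).prod (polarBilin Q v ∘ₗ L ∘ₗ L)))]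
    · congr 1
      simp
    · rintro ⟨a, b, d⟩
      refine ⟨(c * d) • v + (c * b) • L v + (c * a) • L (L v), ?_, ?_⟩
      · exact W.add_mem (W.add_mem (W.smul_mem _ hv) (W.smul_mem _ (hW v hv))) (W.smul_mem _ (hW _ (hW v hv)))
      · show (polar Q v _, polar Q v (L _), polar Q v (L (L _))) = _
        simp only [map_add, map_smul, hL.cube, map_zero, pol_add_right, pol_smul_right, t1, t2, ← hcdef, pol_zero_right,
          Prod.mk.injEq]
        refine ⟨?_, ?_, ?_⟩
        · linear_combination a * hcc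
        · linear_combination b * hcc
        · linear_combination d * hcc

omit [FiniteDimensional (ZMod 3) V] in
theorem three_exists (hL : Sk Q L) (hW : Iv L W) (hN : Nd Q W) (h : ∃ w ∈ W, L (L w) ≠ 0) :
    ∃ v ∈ W, Q v = 0 ∧ polar Q v (L (L v)) ≠ 0 := by
  have h1 : ∃ v ∈ W, polar Q v (L (L v)) ≠ 0 := by
    by_contra hcon
    push Not at hcon
    obtain ⟨w, hw, hw'⟩ := h
    apply hw'
    apply hN _ (hW _ (hW _ hw))
    intro y hy
    have h2 := hcon (y + w) (W.add_mem hy hw)
    simp only [map_add, pol_add_left, pol_add_right, hcon y hy, hcon w hw] at h2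
    have h3 : polar Q w (L (L y)) = polar Q y (L (L w)) := by
      rw [← hL.polLL, pol_comm]
    rw [hL.polLL, h3]
    rw [h3] at h2
    revert h2
    generalize polar Q y (L (L w)) = a
    revert a
    decide
  obtain ⟨v, hv, hc⟩ := h1
  set c := polar Q v (L (L v)) with hcdef
  have hcc : c * c = 1 := inv_mul_self3 hc
  refine ⟨v - (c * Q v) • L (L v), W.sub_mem hv (W.smul_mem _ (hW _ (hW _ hv))), ?_, ?_⟩
  · apply Q_of_polar
    have h5 : polar Q (L (L v)) v = c := pol_comm _ _
    have h6 : polar Q (L (L v)) (L (L v)) = 0 := by rw [hL.polLL, hL.cube, pol_zero_right]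
    have h7 : polar Q v v = 2 * Q v := polar_self' v
    rw [pol_sub_right, pol_sub_left, pol_sub_left, pol_smul_left, pol_smul_right, pol_smul_left, pol_smul_right,
      ← hcdef, h5, h6, h7]
    linear_combination (-2 * Q v) * hcc
  · simp only [map_sub, map_smul, hL.cube, smul_zero, sub_zero, pol_sub_left, pol_smul_left]
    rw [hL.polLL, hL.cube, pol_zero_right, mul_zero, sub_zero]
    exact hc

theorem eq_two {c : ZMod 3} (h0 : c ≠ 0) (h1 : c ≠ 1) : c = 2 := by revert c; decide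

/-- a generator of a block of length three with value 1, or the last one -/
theorem three_exists' (hL : Sk Q L) (hW : Iv L W) (hN : Nd Q W) (h : ∃ w ∈ W, L (L w) ≠ 0) :
    ∃ v ∈ W, Q v = 0 ∧ polar Q v (L (L v)) ≠ 0 ∧
      (polar Q v (L (L v)) = 1 ∨ ∀ w ∈ pp Q L W v, L (L w) = 0) := by
  obtain ⟨v, hv, hQ, hc⟩ := three_exists hL hW hN h
  by_cases h1 : polar Q v (L (L v)) = 1
  · exact ⟨v, hv, hQ, hc, Or.inl h1⟩
  by_cases h2 : ∀ w ∈ pp Q L W v, L (L w) = 0
  · exact ⟨v, hv, hQ, hc, Or.inr h2⟩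
  push Not at h2
  obtain ⟨v', hv', hQ', hc'⟩ := three_exists hL (pp_iv hL hW v) (three_split hL hW hN hv hQ hc).1 h2
  by_cases h3 : polar Q v' (L (L v')) = 1
  · exact ⟨v', (mem_pp.1 hv').1, hQ', hc', Or.inl h3⟩
  obtain ⟨hv'W, h4, h5, h6⟩ := mem_pp.1 hv'
  have h7 : polar Q (v + v') (L (L (v + v'))) = 1 := by
    have h8 : polar Q v' (L (L v)) = 0 := by rw [pol_comm, hL.polLL, h6]
    simp only [map_add, pol_add_left, pol_add_right, h6, h8, eq_two hc h1, eq_two hc' h3]
    decide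
  refine ⟨v + v', W.add_mem hv hv'W, ?_, ?_, Or.inl h7⟩
  · rw [Q_add, hQ, hQ', h4, add_zero, add_zero]
  · rw [h7]; decide

omit [FiniteDimensional (ZMod 3) V] in
/-- existence of a block pair of length two -/
theorem two_exists (hL : Sk Q L) (hW : Iv L W) (hN : Nd Q W) (h2 : ∀ w ∈ W, L (L w) = 0)
    (h : ∃ w ∈ W, L w ≠ 0) :
    ∃ u ∈ W, ∃ w ∈ W, Q u = 0 ∧ Q w = 0 ∧ polar Q u w = 0 ∧ polar Q u (L w) = 1 := by
  obtain ⟨w, hw, hw'⟩ := h
  have h3 : ∃ u ∈ W, polar Q u (L w) ≠ 0 := by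
    by_contra hcon
    push Not at hcon
    apply hw'
    apply hN _ (hW _ hw)
    intro y hy
    rw [pol_comm]
    exact hcon y hy
  obtain ⟨u, hu, huw⟩ := h3
  have hLL : ∀ a ∈ W, ∀ b, polar Q (L a) (L b) = 0 := by
    intro a ha b
    rw [pol_comm, hL.skew, h2 a ha, pol_zero_right, neg_zero]
  -- scale
  set c := polar Q u (L w) with hc
  have hcc : c * c = 1 := inv_mul_self3 huw
  have huw1 : polar Q (c • u) (L w) = 1 := by rw [pol_smul_left, ← hc, hcc]
  obtain ⟨u0, hu0, hu0w⟩ : ∃ u0 ∈ W, polar Q u0 (L w) = 1 := ⟨c • u, W.smul_mem _ hu, huw1⟩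
  -- make `u` singular
  obtain ⟨u1, hu1, hQu1, hu1w⟩ : ∃ u1 ∈ W, Q u1 = 0 ∧ polar Q u1 (L w) = 1 := by
    refine ⟨u0 - (Q u0) • L w, W.sub_mem hu0 (W.smul_mem _ (hW _ hw)), ?_, ?_⟩
    · apply Q_of_polar
      rw [pol_sub_right, pol_sub_left, pol_sub_left, pol_smul_left, pol_smul_right, pol_smul_left, pol_smul_right,
        hLL w hw, hu0w, pol_comm (L w), hu0w, polar_self']
      ring
    · rw [pol_sub_left, pol_smul_left, hLL w hw, hu0w]
      ring
  -- make `w` singular
  obtain ⟨w1, hw1, hQw1, hu1w1⟩ : ∃ w1 ∈ W, Q w1 = 0 ∧ polar Q u1 (L w1) = 1 := by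
    have e1 : polar Q w (L u1) = -1 := by
      rw [pol_comm, hL.skew, hu1w]
    refine ⟨w + (Q w) • L u1, W.add_mem hw (W.smul_mem _ (hW _ hu1)), ?_, ?_⟩
    · apply Q_of_polar
      rw [pol_add_right, pol_add_left, pol_add_left, pol_smul_left, pol_smul_right, pol_smul_left, pol_smul_right,
        hLL u1 hu1, e1, pol_comm (L u1), e1, polar_self']
      ring
    · rw [map_add, map_smul, h2 u1 hu1, smul_zero, add_zero, hu1w]
  -- make `u`, `w` orthogonal
  refine ⟨u1 + (polar Q u1 w1) • L u1, W.add_mem hu1 (W.smul_mem _ (hW _ hu1)), w1, hw1, ?_, hQw1, ?_, ?_⟩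
  · apply Q_of_polar
    have e2 := hL.pol0 u1
    rw [pol_add_right, pol_add_left, pol_add_left, pol_smul_left, pol_smul_right, pol_smul_left, pol_smul_right,
      hLL u1 hu1, e2, pol_comm (L u1), e2, polar_self', hQu1]
    ring
  · rw [pol_add_left, pol_smul_left, hL.skew, hu1w1]
    ring
  · rw [pol_add_left, pol_smul_left, hLL u1 hu1, hu1w1]
    ring

/-- splitting off a pair of blocks of length two -/
theorem two_split (hL : Sk Q L) (hW : Iv L W) (hN : Nd Q W) (h2 : ∀ w ∈ W, L (L w) = 0) {u w : V} (hu : u ∈ W)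
    (hw : w ∈ W) (hQu : Q u = 0) (hQw : Q w = 0) (huw : polar Q u w = 0) (huw1 : polar Q u (L w) = 1) :
    Nd Q (pp Q L (pp Q L W u) w) ∧
      Module.finrank (ZMod 3) W = Module.finrank (ZMod 3) (pp Q L (pp Q L W u) w) + 4 := by
  have hLL : ∀ a ∈ W, ∀ b, polar Q (L a) (L b) = 0 := by
    intro a ha b
    rw [pol_comm, hL.skew, h2 a ha, pol_zero_right, neg_zero]
  have uu := polar_self0 u hQu
  have ww := polar_self0 w hQw
  have uLu := hL.pol0 u
  have wLw := hL.pol0 w
  have wu : polar Q w u = 0 := by rw [pol_comm, huw]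
  have wLu : polar Q w (L u) = -1 := by rw [pol_comm, hL.skew, huw1]
  have uLLu : L (L u) = 0 := h2 u hu
  have wLLw : L (L w) = 0 := h2 w hw
  have hle : pp Q L (pp Q L W u) w ≤ W := fun y hy => (mem_pp.1 (mem_pp.1 hy).1).1
  have hmem : ∀ y, y ∈ pp Q L (pp Q L W u) w ↔
      y ∈ W ∧ polar Q u y = 0 ∧ polar Q u (L y) = 0 ∧ polar Q w y = 0 ∧ polar Q w (L y) = 0 := by
    intro y
    rw [mem_pp, mem_pp]
    constructor
    · rintro ⟨⟨a, b, c, d⟩, e, f, g⟩
      exact ⟨a, b, c, e, f⟩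
    · rintro ⟨a, b, c, e, f⟩
      exact ⟨⟨a, b, c, by rw [h2 y a, pol_zero_right]⟩, e, f, by rw [h2 y a, pol_zero_right]⟩
  constructor
  · apply nd_of_proj hN hle
    intro y hy
    refine ⟨y + (polar Q w (L y)) • u + (polar Q w y) • L u - (polar Q u (L y)) • w - (polar Q u y) • L w, ?_, ?_⟩
    · rw [hmem]
      refine ⟨?_, ?_, ?_, ?_, ?_⟩
      · exact W.sub_mem (W.sub_mem (W.add_mem (W.add_mem hy (W.smul_mem _ hu)) (W.smul_mem _ (hW _ hu)))
          (W.smul_mem _ hw)) (W.smul_mem _ (hW _ hw))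
      · simp only [pol_sub_right, pol_add_right, pol_smul_right, uu, uLu, huw, huw1]
        ring
      · simp only [map_add, map_sub, map_smul, uLLu, wLLw, pol_sub_right, pol_add_right, pol_smul_right, uLu, huw1,
          pol_zero_right]
        ring
      · simp only [pol_sub_right, pol_add_right, pol_smul_right, ww, wLw, wu, wLu]
        ring
      · simp only [map_add, map_sub, map_smul, uLLu, wLLw, pol_sub_right, pol_add_right, pol_smul_right, wLw, wLu,
          pol_zero_right]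
        ring
    · intro z hz
      obtain ⟨-, h3, h4, h5, h6⟩ := (hmem z).1 hz
      have h3' : polar Q z u = 0 := by rw [pol_comm, h3]
      have h4' : polar Q z (L u) = 0 := by rw [pol_comm, hL.skew, h4, neg_zero]
      have h5' : polar Q z w = 0 := by rw [pol_comm, h5]
      have h6' : polar Q z (L w) = 0 := by rw [pol_comm, hL.skew, h6, neg_zero]
      simp only [pol_sub_right, pol_add_right, pol_smul_right, h3', h4', h5', h6']
      ring
  · set φ : V →ₗ[ZMod 3] (ZMod 3 × ZMod 3) × (ZMod 3 × ZMod 3) :=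
      ((polarBilin Q u).prod (polarBilin Q u ∘ₗ L)).prod ((polarBilin Q w).prod (polarBilin Q w ∘ₗ L)) with hφ
    have hφa : ∀ y, φ y = ((polar Q u y, polar Q u (L y)), (polar Q w y, polar Q w (L y))) := fun y => rfl
    have h3 : pp Q L (pp Q L W u) w = W ⊓ LinearMap.ker φ := by
      ext y
      rw [hmem, Submodule.mem_inf, LinearMap.mem_ker, hφa, Prod.mk_eq_zero, Prod.mk_eq_zero, Prod.mk_eq_zero]
      tauto
    rw [h3, finrank_inf_ker W φ]
    · congr 1
      simp
    · rintro ⟨⟨a, b⟩, ⟨c, d⟩⟩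
      refine ⟨(a) • L w + b • w + (-c) • L u + (-d) • u, ?_, ?_⟩
      · exact W.add_mem (W.add_mem (W.add_mem (W.smul_mem _ (hW _ hw)) (W.smul_mem _ hw)) (W.smul_mem _ (hW _ hu)))
          (W.smul_mem _ hu)
      · rw [hφa]
        simp only [map_add, map_smul, uLLu, wLLw, pol_add_right, pol_smul_right, uu, uLu, huw, huw1, ww, wLw,
          wu, wLu, pol_zero_right, Prod.mk.injEq]
        refine ⟨⟨?_, ?_⟩, ?_, ?_⟩ <;> ring

/-- splitting off a vector fixed by the isometry -/
theorem one_split (hN : Nd Q W) {z : V} (hz : z ∈ W) (hc : polar Q z z ≠ 0) (h1 : ∀ w ∈ W, L w = 0) :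
    Nd Q (pp Q L W z) ∧ Module.finrank (ZMod 3) W = Module.finrank (ZMod 3) (pp Q L W z) + 1 := by
  have hmem : ∀ y, y ∈ pp Q L W z ↔ y ∈ W ∧ polar Q z y = 0 := by
    intro y
    rw [mem_pp]
    constructor
    · rintro ⟨a, b, -, -⟩
      exact ⟨a, b⟩
    · rintro ⟨a, b⟩
      rw [h1 y a, map_zero, pol_zero_right]
      exact ⟨a, b, rfl, rfl⟩
  set c := polar Q z z with hcdef
  have hcc : c * c = 1 := inv_mul_self3 hc
  constructor
  · apply nd_of_proj hN (fun y hy => ((hmem y).1 hy).1)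
    intro w hw
    refine ⟨w - (c * polar Q z w) • z, ?_, ?_⟩
    · rw [hmem]
      refine ⟨W.sub_mem hw (W.smul_mem _ hz), ?_⟩
      rw [pol_sub_right, pol_smul_right, ← hcdef]
      linear_combination (-polar Q z w) * hcc
    · intro y hy
      have h2 : polar Q y z = 0 := by rw [pol_comm, ((hmem y).1 hy).2]
      rw [pol_sub_right, pol_smul_right, h2]
      ring
  · have h3 : pp Q L W z = W ⊓ LinearMap.ker (polarBilin Q z) := by
      ext y
      rw [hmem, Submodule.mem_inf, LinearMap.mem_ker, polarBilin_apply_apply]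
    rw [h3, finrank_inf_ker W (polarBilin Q z)]
    · congr 1
      simp
    · intro a
      refine ⟨(c * a) • z, W.smul_mem _ hz, ?_⟩
      rw [polarBilin_apply_apply, pol_smul_right, ← hcdef]
      linear_combination a * hcc

omit [FiniteDimensional (ZMod 3) V] in
theorem one_exists (hN : Nd Q W) (hW : W ≠ ⊥) : ∃ z ∈ W, polar Q z z ≠ 0 := by
  by_contra hcon
  push Not at hcon
  apply hW
  rw [eq_bot_iff]
  intro w hw
  rw [Submodule.mem_bot]
  apply hN w hw
  intro y hy
  have h := hcon (w + y) (W.add_mem hw hy)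
  rw [pol_add_left, pol_add_right, pol_add_right, hcon w hw, hcon y hy, pol_comm y w] at h
  revert h
  generalize polar Q w y = a
  revert a
  decide

theorem one_exists' (hN : Nd Q W) (hW : W ≠ ⊥) (h1 : ∀ w ∈ W, L w = 0) :
    ∃ z ∈ W, polar Q z z ≠ 0 ∧ (polar Q z z = 1 ∨ pp Q L W z = ⊥) := by
  obtain ⟨z, hz, hc⟩ := one_exists hN hW
  by_cases h2 : polar Q z z = 1
  · exact ⟨z, hz, hc, Or.inl h2⟩
  by_cases h3 : pp Q L W z = ⊥
  · exact ⟨z, hz, hc, Or.inr h3⟩
  obtain ⟨z', hz', hc'⟩ := one_exists (one_split hN hz hc h1).1 h3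
  have hz'W := (mem_pp.1 hz').1
  by_cases h4 : polar Q z' z' = 1
  · exact ⟨z', hz'W, hc', Or.inl h4⟩
  have h5 : polar Q z z' = 0 := (mem_pp.1 hz').2.1
  have h6 : polar Q (z + z') (z + z') = 1 := by
    rw [pol_add_left, pol_add_right, pol_add_right, pol_comm z' z, h5, eq_two hc h2, eq_two hc' h4]
    decide
  exact ⟨z + z', W.add_mem hz hz'W, by rw [h6]; decide, Or.inl h6⟩

end

end Cfsg.Agent.H844.Unip
end

-- part: H844/Assem
section
/-!
# Classes of subgroups of order three (helper844): abstract assembly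

`Γ` a group, `dl : Γ →* A` with `A` of exponent 2, `x t` representatives of the classes of elements of order 3 up to
inversion, `C t` the image of the centralizer of `x t` under `dl`. We describe the classes of subgroups of order 3 of
`ker dl / Z(ker dl)` and the action of `Γ` on them.
-/

set_option autoImplicit false

namespace Cfsg.Agent.H844.Assem

open Subgroup

/-! ### Subgroups of order three -/

section three

variable {P : Type*} [Group P]

theorem orderOf_three {y : P} (h : y ^ 3 = 1) (h1 : y ≠ 1) : orderOf y = 3 := orderOf_eq_prime h h1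

theorem mem_zpowers_three {y z : P} (h : y ^ 3 = 1) (hz : z ∈ zpowers y) : z = 1 ∨ z = y ∨ z = y⁻¹ := by
  obtain ⟨k, rfl⟩ := mem_zpowers_iff.1 hz
  have h3 : y ^ k = y ^ (k % 3) := by
    conv_lhs => rw [← Int.emod_add_mul_ediv k 3, zpow_add, zpow_mul]
    rw [show (3 : ℤ) = ((3 : ℕ) : ℤ) from rfl, zpow_natCast, h, one_zpow, mul_one]
  have h4 : k % 3 = 0 ∨ k % 3 = 1 ∨ k % 3 = 2 := by omega
  rw [h3]
  rcases h4 with h4 | h4 | h4
  · left; rw [h4, zpow_zero]
  · right; left; rw [h4, zpow_one]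
  · right; right
    rw [h4, eq_inv_iff_mul_eq_one, ← h]
    rw [show (2 : ℤ) = ((2 : ℕ) : ℤ) from rfl, zpow_natCast, ← pow_succ]

theorem exists_gen {X : Subgroup P} (hX : Nat.card X = 3) : ∃ y, y ^ 3 = 1 ∧ y ≠ 1 ∧ X = zpowers y := by
  have : Fact (Nat.Prime 3) := ⟨by norm_num⟩
  have hc : IsCyclic X := isCyclic_of_prime_card hX
  obtain ⟨g, hg⟩ := hc.exists_generator
  have h1 : X = zpowers (g : P) := by
    apply le_antisymm
    · intro z hz
      obtain ⟨k, hk⟩ := mem_zpowers_iff.1 (hg ⟨z, hz⟩)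
      exact mem_zpowers_iff.2 ⟨k, by rw [← Subgroup.coe_zpow, hk]⟩
    · rw [zpowers_le]
      exact g.2
  have h2 : orderOf (g : P) = 3 := by rw [← Nat.card_zpowers, ← h1, hX]
  refine ⟨g, ?_, ?_, h1⟩
  · rw [← h2, pow_orderOf_eq_one]
  · intro h
    rw [h, orderOf_one] at h2
    omega

theorem zpowers_eq_iff {y z : P} (hy : y ^ 3 = 1) (hz1 : z ≠ 1) :
    zpowers z = zpowers y ↔ z = y ∨ z = y⁻¹ := by
  constructor
  · intro h
    have h1 : z ∈ zpowers y := by rw [← h]; exact mem_zpowers z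
    rcases mem_zpowers_three hy h1 with h2 | h2
    · exact absurd h2 hz1
    · exact h2
  · rintro (rfl | rfl)
    · rfl
    · exact zpowers_inv

end three

/-! ### The classes in `Γ` -/

variable {Γ A T I : Type*} [Group Γ] [CommGroup A]

/-- classes of elements of order three up to inversion, with the images of the centralizers -/
structure Dat (dl : Γ →* A) (x : T → Γ) (C : T → A → Prop) : Prop where
  sq : ∀ a : A, a * a = 1
  cube : ∀ t, x t ^ 3 = 1
  ne : ∀ t, x t ≠ 1
  hc : ∀ t a, C t a ↔ ∃ g, g * x t * g⁻¹ = x t ∧ dl g = a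
  cov : ∀ z : Γ, z ^ 3 = 1 → z ≠ 1 → ∃ t g, g * z * g⁻¹ = x t
  sep : ∀ t t' g, g * x t * g⁻¹ = x t' ∨ g * x t * g⁻¹ = (x t')⁻¹ → t = t'
  real : ∀ t, ∃ g, g * x t * g⁻¹ = (x t)⁻¹ ∧ C t (dl g)

/-- indices for the classes of the kernel -/
structure Idx (dl : Γ →* A) (C : T → A → Prop) (t : I → T) (r : I → Γ) : Prop where
  inj : ∀ i j, t i = t j → C (t i) (dl (r i) * dl (r j)) → i = j
  surj : ∀ s a, ∃ i, t i = s ∧ C s (a * dl (r i))

/-- the representatives -/
def yy (x : T → Γ) (t : I → T) (r : I → Γ) (i : I) : Γ := r i * x (t i) * (r i)⁻¹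

variable {dl : Γ →* A} {x : T → Γ} {C : T → A → Prop} {t : I → T} {r : I → Γ}

theorem Dat.inv (h : Dat dl x C) (a : A) : a⁻¹ = a := inv_eq_of_mul_eq_one_left (h.sq a)

theorem Dat.mul (h : Dat dl x C) {s : T} {a b : A} (ha : C s a) (hb : C s b) : C s (a * b) := by
  obtain ⟨g, hg, rfl⟩ := (h.hc s a).1 ha
  obtain ⟨g', hg', rfl⟩ := (h.hc s b).1 hb
  refine (h.hc s _).2 ⟨g * g', ?_, map_mul _ _ _⟩
  have : g * g' * x s * (g * g')⁻¹ = g * (g' * x s * g'⁻¹) * g⁻¹ := by group
  rw [this, hg', hg]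

theorem yy_conj (g : Γ) (i j : I) (ε : Γ → Γ) (hε : ε = id ∨ ε = fun y => y⁻¹) :
    g * yy x t r i * g⁻¹ = ε (yy x t r j) ↔
      ((r j)⁻¹ * g * r i) * x (t i) * ((r j)⁻¹ * g * r i)⁻¹ = ε (x (t j)) := by
  have e1 : ((r j)⁻¹ * g * r i) * x (t i) * ((r j)⁻¹ * g * r i)⁻¹ = (r j)⁻¹ * (g * yy x t r i * g⁻¹) * r j := by
    simp only [yy, mul_inv_rev, inv_inv, mul_assoc]
  rw [e1]
  have e2 : (r j)⁻¹ * ε (yy x t r j) * r j = ε (x (t j)) := by
    rcases hε with rfl | rfl
    · simp only [yy, id]; group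
    · simp only [yy, mul_inv_rev, inv_inv]; group
  rw [← e2]
  constructor
  · intro h; rw [h]
  · intro h
    have := mul_right_cancel h
    exact mul_left_cancel this

/-- **Fusion.** -/
theorem Dat.fuse (h : Dat dl x C) (i j : I) (a : A) :
    (∃ g, dl g = a ∧ (g * yy x t r i * g⁻¹ = yy x t r j ∨ g * yy x t r i * g⁻¹ = (yy x t r j)⁻¹)) ↔
      t i = t j ∧ C (t i) (a * dl (r i) * dl (r j)) := by
  constructor
  · rintro ⟨g, rfl, hg⟩
    have h1 : ((r j)⁻¹ * g * r i) * x (t i) * ((r j)⁻¹ * g * r i)⁻¹ = x (t j) ∨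
        ((r j)⁻¹ * g * r i) * x (t i) * ((r j)⁻¹ * g * r i)⁻¹ = (x (t j))⁻¹ := by
      rcases hg with hg | hg
      · left; exact (yy_conj g i j id (Or.inl rfl)).1 hg
      · right; exact (yy_conj g i j (fun y => y⁻¹) (Or.inr rfl)).1 hg
    have ht := h.sep _ _ _ h1
    refine ⟨ht, ?_⟩
    have e : dl ((r j)⁻¹ * g * r i) = dl g * dl (r i) * dl (r j) := by
      rw [map_mul, map_mul, map_inv, h.inv, mul_comm (dl (r j)), mul_assoc, mul_comm (dl (r j)), mul_assoc]
    rw [← ht] at h1
    rcases h1 with h1 | h1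
    · exact (h.hc _ _).2 ⟨_, h1, e⟩
    · obtain ⟨ρ, hρ, hρ'⟩ := h.real (t i)
      have h2 : C (t i) (dl ρ * (dl g * dl (r i) * dl (r j))) := by
        refine (h.hc _ _).2 ⟨ρ * ((r j)⁻¹ * g * r i), ?_, by rw [map_mul, e]⟩
        generalize (r j)⁻¹ * g * r i = k at *
        have : ρ * k * x (t i) * (ρ * k)⁻¹ = ρ * (k * x (t i) * k⁻¹) * ρ⁻¹ := by group
        rw [this, h1]
        have h3 : ρ * (x (t i))⁻¹ * ρ⁻¹ = (ρ * x (t i) * ρ⁻¹)⁻¹ := by group
        rw [h3, hρ, inv_inv]
      have h4 := h.mul hρ' h2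
      rwa [← mul_assoc, h.sq, one_mul] at h4
  · rintro ⟨ht, hC⟩
    obtain ⟨k, hk, hk'⟩ := (h.hc _ _).1 hC
    refine ⟨r j * k * (r i)⁻¹, ?_, Or.inl ?_⟩
    · rw [map_mul, map_mul, map_inv, hk', h.inv]
      calc dl (r j) * (a * dl (r i) * dl (r j)) * dl (r i)
          = a * (dl (r i) * dl (r i)) * (dl (r j) * dl (r j)) := by
            simp only [mul_comm, mul_left_comm]
        _ = a := by rw [h.sq, h.sq, mul_one, mul_one]
    · refine (yy_conj _ i j id (Or.inl rfl)).2 ?_
      have e : (r j)⁻¹ * (r j * k * (r i)⁻¹) * r i = k := by group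
      rw [e, hk, ht]
      rfl

theorem yy_cube (h : Dat dl x C) (i : I) : yy x t r i ^ 3 = 1 := by
  rw [yy, conj_pow, h.cube, mul_one, mul_inv_cancel]

theorem yy_ne (h : Dat dl x C) (i : I) : yy x t r i ≠ 1 := by
  intro h1
  apply h.ne (t i)
  rw [yy] at h1
  have := mul_inv_eq_one.1 h1
  exact (mul_eq_left.1 this)

/-- an element of odd order is in the kernel -/
theorem Dat.mem_ker (h : Dat dl x C) {z : Γ} (hz : z ^ 3 = 1) : z ∈ dl.ker := by
  rw [MonoidHom.mem_ker]
  have h1 := h.sq (dl z)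
  have h2 : dl z ^ 3 = 1 := by rw [← map_pow, hz, map_one]
  rw [pow_succ, pow_two, h1, one_mul] at h2
  exact h2

theorem Dat.cover (h : Dat dl x C) (hI : Idx dl C t r) {z : Γ} (hz : z ^ 3 = 1) (hz1 : z ≠ 1) :
    ∃ i g, dl g = 1 ∧ g * z * g⁻¹ = yy x t r i := by
  obtain ⟨s, g, hg⟩ := h.cov z hz hz1
  obtain ⟨i, hi, hi'⟩ := hI.surj s (dl g)
  obtain ⟨k, hk, hk'⟩ := (h.hc _ _).1 hi'
  refine ⟨i, r i * k * g, ?_, ?_⟩
  · rw [map_mul, map_mul, hk']
    calc dl (r i) * (dl g * dl (r i)) * dl g = (dl g * dl g) * (dl (r i) * dl (r i)) := by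
          simp only [mul_comm, mul_left_comm]
      _ = 1 := by rw [h.sq, h.sq, mul_one]
  · have : r i * k * g * z * (r i * k * g)⁻¹ = r i * (k * (g * z * g⁻¹) * k⁻¹) * (r i)⁻¹ := by group
    rw [this, hg, hk, yy, hi]

/-! ### The quotient -/

/-- the automorphism of the central quotient -/
def quotAut {G : Type*} [Group G] : MulAut G →* MulAut (G ⧸ center G) where
  toFun α := QuotientGroup.congr _ _ α (by
    ext x
    rw [Subgroup.mem_map]
    constructor
    · rintro ⟨y, hy, rfl⟩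
      rw [Subgroup.mem_center_iff] at hy ⊢
      intro g
      have := congrArg α (hy (α.symm g))
      simpa using this
    · intro hx
      refine ⟨α.symm x, ?_, by simp⟩
      rw [Subgroup.mem_center_iff] at hx ⊢
      intro g
      have := congrArg α.symm (hx (α g))
      simpa using this)
  map_one' := by
    ext x
    induction x using QuotientGroup.induction_on with
    | H x => rfl
  map_mul' α β := by
    ext x
    induction x using QuotientGroup.induction_on with
    | H x => rfl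

theorem quotAut_mk {G : Type*} [Group G] (α : MulAut G) (g : G) :
    quotAut α (QuotientGroup.mk g) = QuotientGroup.mk (α g) := rfl

variable (dl) in
/-- the simple group -/
abbrev PP : Type _ := dl.ker ⧸ center dl.ker

variable (dl) in
/-- the automorphism induced by an element of `Γ` -/
def th : Γ →* MulAut (PP dl) := quotAut.comp MulAut.conjNormal

theorem th_mk (g : Γ) (e : dl.ker) : th dl g (QuotientGroup.mk e) = QuotientGroup.mk (MulAut.conjNormal g e) := rfl

/-- the elements in the kernel -/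
def y1 (h : Dat dl x C) (t : I → T) (r : I → Γ) (i : I) : dl.ker := ⟨yy x t r i, h.mem_ker (yy_cube h i)⟩

/-- the subgroups -/
def YY (h : Dat dl x C) (t : I → T) (r : I → Γ) (i : I) : Subgroup (PP dl) :=
  zpowers (QuotientGroup.mk (y1 h t r i))

theorem mk_cube (h : Dat dl x C) (i : I) : (QuotientGroup.mk (y1 h t r i) : PP dl) ^ 3 = 1 := by
  rw [← QuotientGroup.mk_pow, ← QuotientGroup.mk_one]
  congr 1
  apply Subtype.ext
  exact yy_cube h i

/-- elements of order three with the same image -/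
theorem eq_of_mk (hz : ∀ z ∈ center dl.ker, z ^ 2 = 1) {a b : dl.ker} (ha : a ^ 3 = 1) (hb : b ^ 3 = 1)
    (h : (QuotientGroup.mk a : PP dl) = QuotientGroup.mk b) : a = b := by
  rw [QuotientGroup.eq] at h
  have h1 := mem_center_iff.1 h
  have h2 := hz _ h
  set z := a⁻¹ * b with hzz
  have h3 : b = a * z := by rw [hzz, mul_inv_cancel_left]
  have h4 : b ^ 3 = a ^ 3 * z ^ 3 := by
    rw [h3]
    exact (show Commute a z from h1 a).mul_pow 3
  rw [ha, hb, one_mul, pow_succ, h2, one_mul] at h4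
  rw [h3, ← h4, mul_one]

theorem mk_ne (h : Dat dl x C) (hz : ∀ z ∈ center dl.ker, z ^ 2 = 1) (i : I) :
    (QuotientGroup.mk (y1 h t r i) : PP dl) ≠ 1 := by
  intro h1
  have h2 := eq_of_mk hz (b := 1) (Subtype.ext (yy_cube h i)) (one_pow 3) h1
  exact yy_ne h i (congrArg Subtype.val h2)

theorem YY_card (h : Dat dl x C) (hz : ∀ z ∈ center dl.ker, z ^ 2 = 1) (i : I) : Nat.card (YY h t r i) = 3 := by
  rw [YY, Nat.card_zpowers]
  exact orderOf_three (mk_cube h i) (mk_ne h hz i)

theorem YY_cov (h : Dat dl x C) (hI : Idx dl C t r) (X : Subgroup (PP dl))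
    (hX : Nat.card X = 3) : (∀ z ∈ center dl.ker, z ^ 2 = 1) → ∃ i, ∃ p : PP dl, X.map (MulAut.conj p).toMonoidHom = YY h t r i := by
  intro hz
  obtain ⟨y, hy3, hy1, rfl⟩ := exists_gen hX
  obtain ⟨e, rfl⟩ := QuotientGroup.mk_surjective y
  have h1 : e ^ 3 ∈ center dl.ker := by
    rw [← QuotientGroup.eq_one_iff, QuotientGroup.mk_pow]
    exact hy3
  have h2 := hz _ h1
  have h3 : (e ^ 4) ^ 3 = 1 := by
    rw [← pow_mul, show 4 * 3 = 3 * 2 * 2 from rfl, pow_mul, pow_mul, h2, one_pow]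
  have h4 : (QuotientGroup.mk (e ^ 4) : PP dl) = QuotientGroup.mk e := by
    rw [QuotientGroup.mk_pow, pow_succ, hy3, one_mul]
  have h5 : (e ^ 4 : dl.ker) ≠ 1 := by
    intro h5
    apply hy1
    rw [← h4, h5]
    rfl
  obtain ⟨i, g, hg, hg'⟩ := h.cover hI (z := ((e ^ 4 : dl.ker) : Γ)) (by rw [← Subgroup.coe_pow, h3]; rfl)
    (fun h6 => h5 (Subtype.ext h6))
  refine ⟨i, QuotientGroup.mk (⟨g, MonoidHom.mem_ker.2 hg⟩ : dl.ker), ?_⟩
  rw [MonoidHom.map_zpowers, YY, ← h4]
  congr 1
  show (QuotientGroup.mk ((⟨g, MonoidHom.mem_ker.2 hg⟩ : dl.ker) * e ^ 4 * (⟨g, MonoidHom.mem_ker.2 hg⟩ : dl.ker)⁻¹) :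
    PP dl) = _
  congr 1
  apply Subtype.ext
  exact hg'

/-- **Fusion in the quotient, with automorphisms.** -/
theorem YY_fuse (h : Dat dl x C) (hz : ∀ z ∈ center dl.ker, z ^ 2 = 1) (g : Γ) (i j : I) :
    (∃ p : PP dl, ((YY h t r i).map (th dl g).toMonoidHom).map (MulAut.conj p).toMonoidHom = YY h t r j) ↔
      t i = t j ∧ C (t i) (dl g * dl (r i) * dl (r j)) := by
  rw [← h.fuse]
  have key : ∀ e : dl.ker, ((YY h t r i).map (th dl g).toMonoidHom).map
      (MulAut.conj (QuotientGroup.mk e : PP dl)).toMonoidHom = YY h t r j ↔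
      ((e : Γ) * g) * yy x t r i * ((e : Γ) * g)⁻¹ = yy x t r j ∨
        ((e : Γ) * g) * yy x t r i * ((e : Γ) * g)⁻¹ = (yy x t r j)⁻¹ := by
    intro e
    set c : dl.ker := e * MulAut.conjNormal g (y1 h t r i) * e⁻¹ with hc
    have hcv : (c : Γ) = ((e : Γ) * g) * yy x t r i * ((e : Γ) * g)⁻¹ := by
      rw [hc, Subgroup.coe_mul, Subgroup.coe_mul, MulAut.conjNormal_apply, Subgroup.coe_inv]
      show (e : Γ) * (g * yy x t r i * g⁻¹) * (e : Γ)⁻¹ = _
      group
    have hc3 : c ^ 3 = 1 := by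
      apply Subtype.ext
      rw [Subgroup.coe_pow, hcv, conj_pow, yy_cube h, mul_one, mul_inv_cancel]
      rfl
    have e1 : ((YY h t r i).map (th dl g).toMonoidHom).map (MulAut.conj (QuotientGroup.mk e : PP dl)).toMonoidHom
        = zpowers (QuotientGroup.mk c : PP dl) := by
      rw [YY, MonoidHom.map_zpowers, MonoidHom.map_zpowers]
      rfl
    have hy3 : (y1 h t r j) ^ 3 = 1 := Subtype.ext (yy_cube h j)
    have hc1 : (QuotientGroup.mk c : PP dl) ≠ 1 := by
      intro h1
      have h2 := eq_of_mk hz (b := 1) hc3 (one_pow 3) h1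
      have h3 := congrArg Subtype.val h2
      rw [hcv] at h3
      apply yy_ne h i (t := t) (r := r)
      have h4 := mul_inv_eq_one.1 h3
      exact mul_eq_left.1 h4
    rw [e1, YY, zpowers_eq_iff (mk_cube h j) hc1, ← hcv]
    apply or_congr
    · constructor
      · intro h1
        exact congrArg Subtype.val (eq_of_mk hz hc3 hy3 h1)
      · intro h1
        congr 1
        exact Subtype.ext h1
    · constructor
      · intro h1
        rw [← QuotientGroup.mk_inv] at h1
        have := eq_of_mk hz hc3 (b := (y1 h t r j)⁻¹) (by rw [inv_pow, hy3, inv_one]) h1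
        exact congrArg Subtype.val this
      · intro h1
        rw [← QuotientGroup.mk_inv]
        congr 1
        exact Subtype.ext h1
  constructor
  · rintro ⟨p, hp⟩
    obtain ⟨e, rfl⟩ := QuotientGroup.mk_surjective p
    refine ⟨(e : Γ) * g, ?_, (key e).1 hp⟩
    rw [map_mul, (MonoidHom.mem_ker.1 e.2), one_mul]
  · rintro ⟨k, hk, hk'⟩
    have he : k * g⁻¹ ∈ dl.ker := by
      rw [MonoidHom.mem_ker, map_mul, map_inv, hk, mul_inv_cancel]
    refine ⟨QuotientGroup.mk (⟨k * g⁻¹, he⟩ : dl.ker), (key _).2 ?_⟩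
    simp only [inv_mul_cancel_right]
    exact hk'

theorem YY_sep (h : Dat dl x C) (hI : Idx dl C t r) (hz : ∀ z ∈ center dl.ker, z ^ 2 = 1) (i j : I)
    (hp : ∃ p : PP dl, (YY h t r i).map (MulAut.conj p).toMonoidHom = YY h t r j) : i = j := by
  obtain ⟨p, hp⟩ := hp
  have h1 : t i = t j ∧ C (t i) (dl 1 * dl (r i) * dl (r j)) := by
    rw [← YY_fuse h hz 1 i j]
    refine ⟨p, ?_⟩
    rw [map_one]
    rw [← hp]
    congr 1
    exact Subgroup.map_id _
  rw [map_one, one_mul] at h1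
  exact hI.inj i j h1.1 h1.2

/-! ### Transfer -/

theorem map_conj_equiv {P P' : Type*} [Group P] [Group P'] (e : P ≃* P') (X : Subgroup P) (p : P) :
    (X.map e.toMonoidHom).map (MulAut.conj (e p)).toMonoidHom = (X.map (MulAut.conj p).toMonoidHom).map e.toMonoidHom := by
  rw [Subgroup.map_map, Subgroup.map_map]
  congr 1
  ext q
  show e p * e q * (e p)⁻¹ = e (p * q * p⁻¹)
  rw [map_mul, map_mul, map_inv]

/-- transfer of the classification of the classes of subgroups along an isomorphism -/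
theorem transfer {P P' I : Type*} [Group P] [Group P'] (e : P ≃* P') (Y : I → Subgroup P) (n : ℕ)
    (h1 : ∀ i, Nat.card (Y i) = n)
    (h2 : ∀ i j, (∃ g : P, (Y i).map (MulAut.conj g).toMonoidHom = Y j) → i = j)
    (h3 : ∀ X : Subgroup P, Nat.card X = n → ∃ i, ∃ g : P, X.map (MulAut.conj g).toMonoidHom = Y i) :
    ∃ Y : I → Subgroup P', (∀ i, Nat.card (Y i) = n) ∧
      (∀ i j, (∃ g : P', (Y i).map (MulAut.conj g).toMonoidHom = Y j) → i = j) ∧
      (∀ X : Subgroup P', Nat.card X = n → ∃ i, ∃ g : P', X.map (MulAut.conj g).toMonoidHom = Y i) := by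
  have hc : ∀ X : Subgroup P, Nat.card (X.map e.toMonoidHom) = Nat.card X := fun X =>
    (Nat.card_congr (X.equivMapOfInjective e.toMonoidHom e.injective).toEquiv).symm
  have hinj : Function.Injective (Subgroup.map e.toMonoidHom) := Subgroup.map_injective e.injective
  refine ⟨fun i => (Y i).map e.toMonoidHom, fun i => by rw [hc, h1], ?_, ?_⟩
  · rintro i j ⟨g, hg⟩
    obtain ⟨p, rfl⟩ := e.surjective g
    rw [map_conj_equiv] at hg
    exact h2 i j ⟨p, hinj hg⟩
  · intro X hX
    have h4 : (X.map e.symm.toMonoidHom).map e.toMonoidHom = X := by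
      rw [Subgroup.map_map]
      have : e.toMonoidHom.comp e.symm.toMonoidHom = MonoidHom.id P' := by
        ext x
        exact e.apply_symm_apply x
      rw [this, Subgroup.map_id]
    obtain ⟨i, g, hg⟩ := h3 (X.map e.symm.toMonoidHom) (by rw [← hc, h4, hX])
    refine ⟨i, e g, ?_⟩
    show _ = (Y i).map e.toMonoidHom
    rw [← hg, ← map_conj_equiv, h4]

end Cfsg.Agent.H844.Assem
end
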