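import Mathlib
import Cfsg.Agent.H844.UnipPeel_mg
import Cfsg.Agent.FooteOrth.Spin
import Cfsg.Agent.ClassicalGeometry.OrthAut1
import Cfsg.Agent.H844.PCenter
set_option linter.all false

-- part: H844/UnipCent
section
/-!
# Isometries of order three of quadratic spaces over `F₃` (helper844), IV: centralizers

`C` a subgroup of `O Q` (think of `E Q` times something) ... We show that an isometry commuting with `L` is the product of
an element of `E Q`, and (for the shapes with a block of length three) of sign changes of blocks.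
-/

set_option autoImplicit false

namespace Cfsg.Agent.H844.Unip

open QuadraticMap Cfsg.Agent.LieClassical.OrthCore

variable {V : Type*} [AddCommGroup V] [Module (ZMod 3) V] {Q : QuadraticForm (ZMod 3) V} {L : V →ₗ[ZMod 3] V}

/-- `g` commutes with `L` -/
def Cm (L : V →ₗ[ZMod 3] V) (g : V ≃ₗ[ZMod 3] V) : Prop := ∀ v, g (L v) = L (g v)

theorem Cm.mul {g h : V ≃ₗ[ZMod 3] V} (hg : Cm L g) (hh : Cm L h) : Cm L (g * h) := by
  intro v
  show g (h (L v)) = L (g (h v))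
  rw [hh, hg]

theorem Cm.one : Cm L (1 : V ≃ₗ[ZMod 3] V) := fun _ => rfl

theorem Cm.inv {g : V ≃ₗ[ZMod 3] V} (hg : Cm L g) : Cm L g⁻¹ := by
  intro v
  apply g.injective
  have h1 : ∀ w, g (g⁻¹ w) = w := fun w => g.apply_symm_apply w
  rw [h1, hg, h1]

theorem Sk.skew' (hL : Sk Q L) (v w : V) : polar Q v (L w) = - polar Q w (L v) := by
  rw [pol_comm v, hL.skew]

theorem Sk.QL (hL : Sk Q L) {v : V} (h : L (L v) = 0) : Q (L v) = 0 := by
  apply Q_of_polar
  rw [hL.skew, h, pol_zero_right, neg_zero]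

theorem Sk.polL (hL : Sk Q L) (v : V) : polar Q (L v) v = 0 := by
  rw [pol_comm, hL.pol0]

/-- the transformation `T_v` -/
def Tv (hL : Sk Q L) (v : V) (h : L (L v) = 0) : V ≃ₗ[ZMod 3] V := siegel Q (L v) v (hL.QL h) (hL.polL v)

theorem Tv_apply (hL : Sk Q L) (v : V) (h : L (L v) = 0) (y : V) :
    Tv hL v h y = y + polar Q (L v) y • v - polar Q v y • L v - (Q v * polar Q (L v) y) • L v := by
  rw [Tv, siegel_apply]

theorem Tv_mem (hL : Sk Q L) (v : V) (h : L (L v) = 0) : Tv hL v h ∈ E Q := siegel_mem_E _ _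

theorem Tv_cm (hL : Sk Q L) (v : V) (h : L (L v) = 0) : Cm L (Tv hL v h) := by
  intro y
  rw [Tv_apply, Tv_apply]
  simp only [map_add, map_sub, map_smul, h, smul_zero, sub_zero]
  have h1 : polar Q (L v) (L y) = 0 := by rw [pol_comm, hL.skew, h, pol_zero_right, neg_zero]
  have h2 : polar Q v (L y) = - polar Q (L v) y := by rw [hL.skew, neg_neg]
  rw [h1, h2]
  simp only [zero_smul, mul_zero, neg_smul]
  abel

theorem L_Tv (hL : Sk Q L) (v : V) (h : L (L v) = 0) (y : V) :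
    L (Tv hL v h y) = L y - polar Q v (L y) • L v := by
  rw [Tv_apply]
  simp only [map_add, map_sub, map_smul, h, smul_zero, sub_zero]
  have h2 : polar Q (L v) y = - polar Q v (L y) := hL.skew v y
  rw [h2, neg_smul]
  abel

theorem Tv_inv_eq (hL : Sk Q L) (v : V) (h : L (L v) = 0) (y : V) :
    L ((Tv hL v h * Tv hL v h) y) = L y + polar Q v (L y) • L v := by
  show L (Tv hL v h (Tv hL v h y)) = _
  rw [L_Tv, L_Tv, pol_sub_right, pol_smul_right, hL.pol0, mul_zero, sub_zero]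
  have h3 := add3 (polar Q v (L y) • L v)
  linear_combination (norm := module) (-1 : ℤ) • h3

/-- **Moving**: transvections mapping `y` to `y'` modulo the kernel of `L`. -/
theorem move (hL : Sk Q L) {y y' : V} (hy : L (L y) = 0) (hy' : L (L y') = 0) (h : polar Q y (L y') ≠ 0) :
    ∃ T : V ≃ₗ[ZMod 3] V, T ∈ E Q ∧ Cm L T ∧ L (T y) = L y' ∧
      ∀ z, polar Q y (L z) = polar Q y' (L z) → L (T z) = L z := by
  have hv : L (L (y' - y)) = 0 := by rw [map_sub, map_sub, hy, hy', sub_zero]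
  have h1 : polar Q (y' - y) (L y) = - polar Q y (L y') := by
    rw [pol_sub_left, hL.pol0, sub_zero, hL.skew']
  by_cases hk : polar Q y (L y') = 1
  · refine ⟨Tv hL (y' - y) hv, Tv_mem _ _ _, Tv_cm _ _ _, ?_, ?_⟩
    · rw [L_Tv, h1, hk, map_sub, neg_smul, one_smul]
      abel
    · intro z hz
      rw [L_Tv, pol_sub_left, hz, sub_self, zero_smul, sub_zero]
  · have hk2 : polar Q y (L y') = 2 := by
      revert h hk
      generalize polar Q y (L y') = a
      revert a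
      decide
    refine ⟨Tv hL (y' - y) hv * Tv hL (y' - y) hv, mul_mem (Tv_mem _ _ _) (Tv_mem _ _ _),
      (Tv_cm _ _ _).mul (Tv_cm _ _ _), ?_, ?_⟩
    · rw [Tv_inv_eq, h1, hk2, map_sub]
      have : (-2 : ZMod 3) = 1 := by decide
      rw [this, one_smul]
      abel
    · intro z hz
      rw [Tv_inv_eq, pol_sub_left, hz, sub_self, zero_smul, add_zero]

/-- moving in two steps -/
theorem move2 (hL : Sk Q L) {y y' : V} (hy : L (L y) = 0) (hy' : L (L y') = 0) (y'' : V) (hy'' : L (L y'') = 0)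
    (h : polar Q y (L y'') ≠ 0) (h' : polar Q y'' (L y') ≠ 0) :
    ∃ T : V ≃ₗ[ZMod 3] V, T ∈ E Q ∧ Cm L T ∧ L (T y) = L y' ∧
      ∀ z, polar Q y (L z) = polar Q y' (L z) → polar Q y'' (L z) = polar Q y' (L z) → L (T z) = L z := by
  obtain ⟨T, hT, hTc, hTy, hTz⟩ := move hL hy hy'' h
  obtain ⟨T', hT', hTc', hTy', hTz'⟩ := move hL hy'' hy' h'
  refine ⟨T' * T, mul_mem hT' hT, hTc'.mul hTc, ?_, ?_⟩
  · show L (T' (T y)) = _
    rw [← hTc', hTy, hTc', hTy']
  · intro z hz hz'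
    show L (T' (T z)) = _
    rw [← hTc', hTz z (hz.trans hz'.symm), hTc', hTz' z hz']

/-- the combination of both -/
theorem move' (hL : Sk Q L) {y y' : V} (hy : L (L y) = 0) (hy' : L (L y') = 0) (y'' : V) (hy'' : L (L y'') = 0)
    (h : polar Q y (L y') = 0 → polar Q y (L y'') ≠ 0) (h' : polar Q y'' (L y') ≠ 0) :
    ∃ T : V ≃ₗ[ZMod 3] V, T ∈ E Q ∧ Cm L T ∧ L (T y) = L y' ∧
      ∀ z, polar Q y (L z) = polar Q y' (L z) → polar Q y'' (L z) = polar Q y' (L z) → L (T z) = L z := by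
  by_cases h0 : polar Q y (L y') = 0
  · exact move2 hL hy hy' y'' hy'' (h h0) h'
  · obtain ⟨T, hT, hTc, hTy, hTz⟩ := move hL hy hy' h0
    exact ⟨T, hT, hTc, hTy, fun z hz _ => hTz z hz⟩

/-! ### Unipotent elements -/

theorem sub_pow9 (g : V ≃ₗ[ZMod 3] V)
    (h : ∀ v, (((g : V →ₗ[ZMod 3] V) - 1 : Module.End (ZMod 3) V) ^ 5) v = 0) : g ^ 9 = 1 := by
  have hc : ((g : V →ₗ[ZMod 3] V) - 1 : Module.End (ZMod 3) V) ^ 9 = (g : V →ₗ[ZMod 3] V) ^ 9 - 1 := by
    have h3 : ∀ x : Module.End (ZMod 3) V, (x - 1) ^ 3 = x ^ 3 - 1 := by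
      intro x
      have e : (x - 1) ^ 3 = x ^ 3 - 3 * x ^ 2 + 3 * x - 1 := by
        have hcm : Commute x (1 : Module.End (ZMod 3) V) := Commute.one_right x
        noncomm_ring
      have e3 : (3 : Module.End (ZMod 3) V) = 0 := by
        ext v
        have := add3 v
        show (3 : Module.End (ZMod 3) V) v = 0
        rw [show (3 : Module.End (ZMod 3) V) = 1 + 1 + 1 by norm_num]
        exact this
      rw [e, e3, zero_mul, zero_mul, sub_zero, add_zero]
    rw [show (9 : ℕ) = 3 * 3 from rfl, pow_mul, h3, h3, pow_mul]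
  have h9 : ((g : V →ₗ[ZMod 3] V) - 1 : Module.End (ZMod 3) V) ^ 9 = 0 := by
    ext v
    rw [show (9 : ℕ) = 4 + 5 from rfl, pow_add, Module.End.mul_apply, h, map_zero]
    rfl
  rw [h9] at hc
  ext v
  have h10 : ((g : V →ₗ[ZMod 3] V) ^ 9 : Module.End (ZMod 3) V) v = v := by
    have := LinearMap.congr_fun hc v
    rw [LinearMap.sub_apply, LinearMap.zero_apply] at this
    exact (sub_eq_zero.1 this.symm)
  have h11 : ∀ (n : ℕ) (v : V), (g ^ n) v = ((g : V →ₗ[ZMod 3] V) ^ n : Module.End (ZMod 3) V) v := by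
    intro n
    induction n with
    | zero => intro v; rfl
    | succ n ih =>
      intro v
      rw [pow_succ, pow_succ, Module.End.mul_apply, ← ih]
      rfl
  show (g ^ 9) v = v
  rw [h11, h10]

/-- the unipotence criterion -/
theorem unip5 {g : V ≃ₗ[ZMod 3] V} (hg : Cm L g) (h1 : ∀ v, L (L (g v - v)) = 0)
    (h2 : ∀ v, L (L v) = 0 → ∃ y k, g v - v = L y + k ∧ L k = 0)
    (h3 : ∀ k, L k = 0 → ∃ y, L (L y) = 0 ∧ g k - k = L y) : g ^ 9 = 1 := by
  apply sub_pow9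
  intro v
  have hN : ∀ w, ((g : V →ₗ[ZMod 3] V) - 1 : Module.End (ZMod 3) V) w = g w - w := fun w => rfl
  have e : (((g : V →ₗ[ZMod 3] V) - 1 : Module.End (ZMod 3) V) ^ 5) v
      = ((g : V →ₗ[ZMod 3] V) - 1 : Module.End (ZMod 3) V) (((g : V →ₗ[ZMod 3] V) - 1 : Module.End (ZMod 3) V)
        (((g : V →ₗ[ZMod 3] V) - 1 : Module.End (ZMod 3) V) (((g : V →ₗ[ZMod 3] V) - 1 : Module.End (ZMod 3) V)
        (((g : V →ₗ[ZMod 3] V) - 1 : Module.End (ZMod 3) V) v)))) := by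
    simp only [pow_succ, pow_zero, one_mul, Module.End.mul_apply]
  rw [e]
  simp only [hN]
  have hcm : ∀ w, g (L w) - L w = L (g w - w) := by
    intro w
    rw [hg, map_sub]
  generalize hv1 : g v - v = v1
  have hv1' : L (L v1) = 0 := by rw [← hv1]; exact h1 v
  obtain ⟨y, k, hyk, hk⟩ := h2 v1 hv1'
  rw [hyk]
  obtain ⟨y', hy', hk'⟩ := h3 k hk
  have e3 : g (L y + k) - (L y + k) = L ((g y - y) + y') := by
    rw [map_add, map_add, ← hk', ← hcm]
    abel
  rw [e3]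
  have hy3 : L (L ((g y - y) + y')) = 0 := by
    rw [map_add, map_add, h1, hy', add_zero]
  rw [hcm]
  obtain ⟨y4, k4, hyk4, hk4⟩ := h2 _ hy3
  rw [hyk4, map_add, hk4, add_zero, hcm, hcm, h1]

/-! ### One block of length three, one pair of blocks of length two, at most one block of length one -/

/-- generators for the shapes `3, 2², 1` and `3, 2²` (`z = 0`) -/
structure Gen3 (Q : QuadraticForm (ZMod 3) V) (L : V →ₗ[ZMod 3] V) (a u w z : V) : Prop where
  ca : polar Q a (L (L a)) ≠ 0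
  LLu : L (L u) = 0
  LLw : L (L w) = 0
  Lz : L z = 0
  uw : polar Q u (L w) = 1
  gen : ∀ y, ∃ (α lam μ ζ : ZMod 3) (y' : V), y = α • a + lam • u + μ • w + ζ • z + L y'
  hz : z = 0 ∨ polar Q z z ≠ 0

theorem Gen3.LLa {a u w z : V} (h : Gen3 Q L a u w z) : L (L a) ≠ 0 := by
  intro h1
  apply h.ca
  rw [h1, pol_zero_right]

theorem Gen3.LL {a u w z : V} (hL : Sk Q L) (h : Gen3 Q L a u w z) {α lam μ ζ : ZMod 3} {y y' : V}
    (hy : y = α • a + lam • u + μ • w + ζ • z + L y') : L (L y) = α • L (L a) := by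
  rw [hy]
  simp only [map_add, map_smul, h.LLu, h.LLw, h.Lz, smul_zero, hL.cube, add_zero]

theorem Gen3.ker2 {a u w z : V} (hL : Sk Q L) (h : Gen3 Q L a u w z) {y : V} (hy : L (L y) = 0) :
    ∃ (lam μ ζ : ZMod 3) (y' : V), y = lam • u + μ • w + ζ • z + L y' := by
  obtain ⟨α, lam, μ, ζ, y', hyy⟩ := h.gen y
  have h1 := h.LL hL hyy
  rw [hy] at h1
  have h2 : α = 0 := by
    rcases smul_eq_zero.1 h1.symm with h2 | h2
    · exact h2
    · exact absurd h2 h.LLa
  exact ⟨lam, μ, ζ, y', by rw [hyy, h2, zero_smul, zero_add]⟩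

theorem Gen3.ker {a u w z : V} (hL : Sk Q L) (h : Gen3 Q L a u w z) {y : V} (hy : L y = 0) :
    ∃ (ζ : ZMod 3) (y' : V), y = ζ • z + L y' ∧ L (L y') = 0 := by
  obtain ⟨lam, μ, ζ, y', hyy⟩ := h.ker2 hL (by rw [hy, map_zero] : L (L y) = 0)
  have h1 : lam = 0 := by
    have h2 : polar Q y (L w) = 0 := by
      have := hL.skew y w
      rw [hy, pol_zero_left] at this
      exact (neg_eq_zero.1 this.symm)
    rw [hyy] at h2
    simp only [pol_add_left, pol_smul_left, h.uw, hL.pol0] at h2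
    have h3 : polar Q z (L w) = 0 := by
      have := hL.skew z w
      rw [h.Lz, pol_zero_left] at this
      exact (neg_eq_zero.1 this.symm)
    have h4 : polar Q (L y') (L w) = 0 := by rw [hL.skew, h.LLw, pol_zero_right, neg_zero]
    rw [h3, h4] at h2
    linear_combination h2
  have h5 : μ = 0 := by
    have h2 : polar Q y (L u) = 0 := by
      have := hL.skew y u
      rw [hy, pol_zero_left] at this
      exact (neg_eq_zero.1 this.symm)
    rw [hyy] at h2
    simp only [pol_add_left, pol_smul_left, hL.pol0] at h2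
    have h3 : polar Q z (L u) = 0 := by
      have := hL.skew z u
      rw [h.Lz, pol_zero_left] at this
      exact (neg_eq_zero.1 this.symm)
    have h4 : polar Q (L y') (L u) = 0 := by rw [hL.skew, h.LLu, pol_zero_right, neg_zero]
    have h6 : polar Q w (L u) = -1 := by rw [hL.skew', h.uw]
    rw [h3, h4, h6] at h2
    linear_combination -h2
  rw [h1, h5, zero_smul, zero_smul, zero_add, zero_add] at hyy
  refine ⟨ζ, y', hyy, ?_⟩
  rw [hyy, map_add, map_smul, h.Lz, smul_zero, zero_add] at hy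
  exact hy

theorem iso_pol {g : V ≃ₗ[ZMod 3] V} (hg : g ∈ O Q) (v w : V) : polar Q (g v) (g w) = polar Q v w := polar_map hg v w

theorem Gen3.uni {a u w z : V} (hL : Sk Q L) (h : Gen3 Q L a u w z) {g : V ≃ₗ[ZMod 3] V} (hg : Cm L g)
    (hu : L (g u) = L u) (hw : L (g w) = L w) (ha : L (L (g a)) = L (L a)) (hz : ∃ s, g z = z + L s ∧ L (L s) = 0) :
    g ^ 9 = 1 := by
  obtain ⟨s, hs, hs'⟩ := hz
  have h1 : ∀ v, L (L (g v - v)) = 0 := by
    intro v
    obtain ⟨α, lam, μ, ζ, v', hv⟩ := h.gen v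
    have e1 := h.LL hL hv
    have e2 : L (L (g v)) = g (L (L v)) := by rw [hg, hg]
    have e3 : g (L (L a)) = L (L a) := by rw [hg, hg, ha]
    rw [map_sub, map_sub, e2, e1, map_smul, e3, sub_self]
  refine unip5 hg h1 ?_ ?_
  · intro v hv
    obtain ⟨lam, μ, ζ, v', hv⟩ := h.ker2 hL hv
    refine ⟨g v' - v', lam • (g u - u) + μ • (g w - w) + ζ • L s, ?_, ?_⟩
    · rw [hv]
      simp only [map_add, map_smul, hg v', hs, map_sub, smul_sub, smul_add]
      abel
    · simp only [map_add, map_smul, map_sub, hu, hw, sub_self, smul_zero, hs', add_zero]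
  · intro k hk
    obtain ⟨ζ, y', hy, hy'⟩ := h.ker hL hk
    refine ⟨ζ • s + (g y' - y'), ?_, ?_⟩
    · rw [map_add, map_add, h1, map_smul, map_smul, hs', smul_zero, add_zero]
    · rw [hy]
      simp only [map_add, map_smul, hg y', hs, map_sub, smul_add]
      abel

theorem sq_one_cases {a : ZMod 3} (h : a * a = 1) : a = 1 ∨ a = -1 := by revert a; decide

/-- **The centralizer, shapes `3, 2², 1` and `3, 2²`.** -/
theorem Gen3.split {a u w z : V} (hL : Sk Q L) (h : Gen3 Q L a u w z) {D R : V ≃ₗ[ZMod 3] V} (hD : Cm L D)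
    (hDa : D a = -a) (hDu : D u = u) (hDw : D w = w) (hDz : D z = z) (hR : Cm L R) (hRa : R a = a) (hRu : R u = u)
    (hRw : R w = w) (hRz : R z = -z) {g : V ≃ₗ[ZMod 3] V} (hgO : g ∈ O Q) (hg : Cm L g) :
    ∃ T ∈ E Q, ∃ i j : ℕ, (T * g * D ^ i * R ^ j) ^ 9 = 1 := by
  have hgu : L (L (g u)) = 0 := by rw [← hg, ← hg, h.LLu, map_zero]
  have hgw : L (L (g w)) = 0 := by rw [← hg, ← hg, h.LLw, map_zero]
  have hwu : polar Q w (L u) = -1 := by rw [hL.skew', h.uw]
  have h11 : (-1 : ZMod 3) ≠ 0 := by decide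
  have h12 : (1 : ZMod 3) ≠ 0 := by decide
  -- first step
  obtain ⟨T, hT, hTc, hTu, -⟩ := move' hL hgu h.LLu w h.LLw
    (by
      intro h1 h2
      have h3 : polar Q (g u) (L (g w)) = 1 := by rw [← hg, iso_pol hgO, h.uw]
      obtain ⟨lam, μ, ζ, s, hs⟩ := h.ker2 hL hgw
      rw [hs] at h3
      simp only [map_add, map_smul, h.Lz, smul_zero, add_zero, pol_add_right, pol_smul_right, h1, h2] at h3
      rw [← hL.polLL, hgu, pol_zero_left, mul_zero, mul_zero, add_zero, add_zero] at h3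
      exact h12 h3.symm)
    (by rw [hwu]; exact h11)
  -- second step
  set g1 : V ≃ₗ[ZMod 3] V := T * g with hg1
  have hg1O : g1 ∈ O Q := mul_mem (E_le_O hT) hgO
  have hg1c : Cm L g1 := hTc.mul hg
  have hg1u : L (g1 u) = L u := hTu
  have hg1w : L (L (g1 w)) = 0 := by rw [← hg1c, ← hg1c, h.LLw, map_zero]
  have e1 : polar Q (g1 w) (L (g1 u)) = -1 := by rw [← hg1c, iso_pol hg1O, hwu]
  obtain ⟨T', hT', hTc', hTw', hTz'⟩ := move' hL hg1w h.LLw (w + u) (by rw [map_add, map_add, h.LLw, h.LLu, add_zero])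
    (by
      intro h1
      rw [map_add, pol_add_right, h1, zero_add, ← hg1u, e1]
      exact h11)
    (by rw [pol_add_left, hL.pol0, h.uw, zero_add]; exact h12)
  set g2 : V ≃ₗ[ZMod 3] V := T' * g1 with hg2
  have hg2O : g2 ∈ O Q := mul_mem (E_le_O hT') hg1O
  have hg2c : Cm L g2 := hTc'.mul hg1c
  have hg2u : L (g2 u) = L u := by
    rw [← hg1u]
    refine hTz' (g1 u) ?_ ?_
    · rw [e1, hg1u, hwu]
    · rw [hg1u, pol_add_left, hL.pol0, add_zero]
  have hg2w : L (g2 w) = L w := hTw'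
  -- the sign on `a`
  obtain ⟨ε, hε, hε'⟩ : ∃ ε : ZMod 3, ε * ε = 1 ∧ L (L (g2 a)) = ε • L (L a) := by
    obtain ⟨α, lam, μ, ζ, s, hs⟩ := h.gen (g2 a)
    have e2 := h.LL hL hs
    refine ⟨α, ?_, e2⟩
    have e3 : polar Q (g2 a) (L (L (g2 a))) = polar Q a (L (L a)) := by
      rw [← hg2c, ← hg2c, iso_pol hg2O]
    rw [e2, pol_smul_right, ← hL.polLL, e2, pol_smul_left, pol_comm (L (L a))] at e3
    apply mul_right_cancel₀ h.ca
    rw [mul_assoc, e3, one_mul]
  -- the sign on `z`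
  obtain ⟨ζ, s, hζ, hs, hs'⟩ : ∃ (ζ : ZMod 3) (s : V), ζ * ζ = 1 ∧ g2 z = ζ • z + L s ∧ L (L s) = 0 := by
    rcases h.hz with hz | hz
    · exact ⟨1, 0, by decide, by rw [hz, map_zero, smul_zero, map_zero, add_zero], by rw [map_zero, map_zero]⟩
    · have e4 : L (g2 z) = 0 := by rw [← hg2c, h.Lz, map_zero]
      obtain ⟨ζ, s, hs, hs'⟩ := h.ker hL e4
      refine ⟨ζ, s, ?_, hs, hs'⟩
      have e5 : polar Q (g2 z) (g2 z) = polar Q z z := iso_pol hg2O z z
      have e6 : polar Q z (L s) = 0 := by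
        have := hL.skew z s
        rw [h.Lz, pol_zero_left] at this
        exact (neg_eq_zero.1 this.symm)
      have e7 : polar Q (L s) z = 0 := by rw [pol_comm, e6]
      have e8 : polar Q (L s) (L s) = 0 := by rw [hL.skew, hs', pol_zero_right, neg_zero]
      rw [hs] at e5
      simp only [pol_add_left, pol_add_right, pol_smul_left, pol_smul_right, e6, e7, e8] at e5
      apply mul_right_cancel₀ hz
      linear_combination e5
  -- adjust the signs
  have key : ∀ (i j : ℕ), ε * (-1) ^ i = 1 → (ζ * (-1) ^ j = 1) → ((T' * T) * g * D ^ i * R ^ j) ^ 9 = 1 := by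
    intro i j hi hj
    have hDi : ∀ i : ℕ, Cm L (D ^ i) ∧ (D ^ i) a = ((-1 : ZMod 3) ^ i) • a ∧ (D ^ i) u = u ∧ (D ^ i) w = w ∧ (D ^ i) z = z := by
      intro i
      induction i with
      | zero => exact ⟨Cm.one, by rw [pow_zero, pow_zero, one_smul]; rfl, rfl, rfl, rfl⟩
      | succ i ih =>
        obtain ⟨i1, i2, i3, i4, i5⟩ := ih
        have e9 : ∀ v, (D ^ (i + 1)) v = D ((D ^ i) v) := by
          intro v; rw [pow_succ']; rfl
        refine ⟨by rw [pow_succ']; exact hD.mul i1, ?_, ?_, ?_, ?_⟩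
        · rw [e9, i2, map_smul, hDa, pow_succ]
          rw [mul_neg, mul_one, neg_smul, smul_neg]
        · rw [e9, i3, hDu]
        · rw [e9, i4, hDw]
        · rw [e9, i5, hDz]
    have hRi : ∀ i : ℕ, Cm L (R ^ i) ∧ (R ^ i) a = a ∧ (R ^ i) u = u ∧ (R ^ i) w = w ∧ (R ^ i) z = ((-1 : ZMod 3) ^ i) • z := by
      intro i
      induction i with
      | zero => exact ⟨Cm.one, rfl, rfl, rfl, by rw [pow_zero, pow_zero, one_smul]; rfl⟩
      | succ i ih =>
        obtain ⟨i1, i2, i3, i4, i5⟩ := ih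
        have e9 : ∀ v, (R ^ (i + 1)) v = R ((R ^ i) v) := by
          intro v; rw [pow_succ']; rfl
        refine ⟨by rw [pow_succ']; exact hR.mul i1, ?_, ?_, ?_, ?_⟩
        · rw [e9, i2, hRa]
        · rw [e9, i3, hRu]
        · rw [e9, i4, hRw]
        · rw [e9, i5, map_smul, hRz, pow_succ]
          rw [mul_neg, mul_one, neg_smul, smul_neg]
    obtain ⟨d1, d2, d3, d4, d5⟩ := hDi i
    obtain ⟨r1, r2, r3, r4, r5⟩ := hRi j
    have e10 : ∀ v, ((T' * T) * g * D ^ i * R ^ j) v = g2 ((D ^ i) ((R ^ j) v)) := fun v => rfl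
    refine h.uni hL (g := (T' * T) * g * D ^ i * R ^ j) ?_ ?_ ?_ ?_ ?_
    · exact (((hTc'.mul hTc).mul hg).mul d1).mul r1
    · rw [e10, r3, d3, hg2u]
    · rw [e10, r4, d4, hg2w]
    · rw [e10, r2, d2, map_smul, map_smul, map_smul, hε', smul_smul, mul_comm, hi, one_smul]
    · refine ⟨((-1 : ZMod 3) ^ j) • s, ?_, ?_⟩
      · rw [e10, r5, map_smul, d5, map_smul, hs, smul_add, smul_smul, mul_comm, hj, one_smul, map_smul]
      · rw [map_smul, map_smul, hs', smul_zero]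
  refine ⟨T' * T, mul_mem hT' hT, ?_⟩
  rcases sq_one_cases hε with h1 | h1 <;> rcases sq_one_cases hζ with h2 | h2
  · exact ⟨0, 0, key 0 0 (by rw [h1]; decide) (by rw [h2]; decide)⟩
  · exact ⟨0, 1, key 0 1 (by rw [h1]; decide) (by rw [h2]; decide)⟩
  · exact ⟨1, 0, key 1 0 (by rw [h1]; decide) (by rw [h2]; decide)⟩
  · exact ⟨1, 1, key 1 1 (by rw [h1]; decide) (by rw [h2]; decide)⟩

/-! ### Two pairs of blocks of length two -/

/-- generators for the shape `2⁴` -/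
structure Gen4 (Q : QuadraticForm (ZMod 3) V) (L : V →ₗ[ZMod 3] V) (u w u' w' : V) : Prop where
  LL : ∀ v, L (L v) = 0
  uw : polar Q u (L w) = 1
  uw' : polar Q u' (L w') = 1
  uu' : polar Q u (L u') = 0
  uw'' : polar Q u (L w') = 0
  wu' : polar Q w (L u') = 0
  ww' : polar Q w (L w') = 0
  gen : ∀ y, ∃ (a b c d : ZMod 3) (y' : V), y = a • u + b • w + c • u' + d • w' + L y'

theorem Gen4.ker {u w u' w' : V} (hL : Sk Q L) (h : Gen4 Q L u w u' w') {y : V} (hy : L y = 0) :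
    ∃ y', y = L y' := by
  obtain ⟨a, b, c, d, y', hyy⟩ := h.gen y
  have hp : ∀ x, polar Q y (L x) = 0 := by
    intro x
    have := hL.skew y x
    rw [hy, pol_zero_left] at this
    exact (neg_eq_zero.1 this.symm)
  have hp' : ∀ x, polar Q (L y') (L x) = 0 := by
    intro x
    rw [hL.skew, h.LL, pol_zero_right, neg_zero]
  have wu : polar Q w (L u) = -1 := by rw [hL.skew', h.uw]
  have wu2 : polar Q w' (L u') = -1 := by rw [hL.skew', h.uw']
  have u'u : polar Q u' (L u) = 0 := by rw [hL.skew', h.uu', neg_zero]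
  have w'u : polar Q w' (L u) = 0 := by rw [hL.skew', h.uw'', neg_zero]
  have u'w : polar Q u' (L w) = 0 := by rw [hL.skew', h.wu', neg_zero]
  have w'w : polar Q w' (L w) = 0 := by rw [hL.skew', h.ww', neg_zero]
  have ha : a = 0 := by
    have h2 := hp w
    rw [hyy] at h2
    simp only [pol_add_left, pol_smul_left, h.uw, hL.pol0, u'w, w'w, hp'] at h2
    linear_combination h2
  have hb : b = 0 := by
    have h2 := hp u
    rw [hyy] at h2
    simp only [pol_add_left, pol_smul_left, wu, hL.pol0, u'u, w'u, hp'] at h2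
    linear_combination -h2
  have hc : c = 0 := by
    have h2 := hp w'
    rw [hyy] at h2
    simp only [pol_add_left, pol_smul_left, h.uw', hL.pol0, h.uw'', h.ww', hp'] at h2
    linear_combination h2
  have hd : d = 0 := by
    have h2 := hp u'
    rw [hyy] at h2
    simp only [pol_add_left, pol_smul_left, wu2, hL.pol0, h.uu', h.wu', hp'] at h2
    linear_combination -h2
  refine ⟨y', ?_⟩
  rw [hyy, ha, hb, hc, hd, zero_smul, zero_smul, zero_smul, zero_smul, zero_add, zero_add, zero_add, zero_add]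

/-- **The centralizer, shape `2⁴`.** -/
theorem Gen4.split {u w u' w' : V} (hL : Sk Q L) (h : Gen4 Q L u w u' w') {g : V ≃ₗ[ZMod 3] V} (hgO : g ∈ O Q)
    (hg : Cm L g) : ∃ T ∈ E Q, (T * g) ^ 9 = 1 := by
  have h11 : (-1 : ZMod 3) ≠ 0 := by decide
  have h12 : (1 : ZMod 3) ≠ 0 := by decide
  have wu : polar Q w (L u) = -1 := by rw [hL.skew', h.uw]
  have wu2 : polar Q w' (L u') = -1 := by rw [hL.skew', h.uw']
  have u'u : polar Q u' (L u) = 0 := by rw [hL.skew', h.uu', neg_zero]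
  have w'u : polar Q w' (L u) = 0 := by rw [hL.skew', h.uw'', neg_zero]
  have u'w : polar Q u' (L w) = 0 := by rw [hL.skew', h.wu', neg_zero]
  have w'w : polar Q w' (L w) = 0 := by rw [hL.skew', h.ww', neg_zero]
  -- nondegeneracy on the generators
  have hnd : ∀ y x, polar Q y (L x) ≠ 0 → polar Q y (L u) = 0 → polar Q y (L w) = 0 → polar Q y (L u') = 0 →
      polar Q y (L w') = 0 → False := by
    intro y x hx h1 h2 h3 h4
    obtain ⟨a, b, c, d, x', hxx⟩ := h.gen x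
    apply hx
    rw [hxx]
    simp only [map_add, map_smul, h.LL, add_zero, pol_add_right, pol_smul_right, h1, h2, h3, h4, mul_zero]
  -- step 1
  obtain ⟨T1, hT1, hT1c, hT1u⟩ : ∃ T : V ≃ₗ[ZMod 3] V, T ∈ E Q ∧ Cm L T ∧ L (T (g u)) = L u := by
    by_cases h0 : polar Q (g u) (L w) = 0
    · -- another generator
      have h1 : polar Q (g u) (L (g w)) = 1 := by rw [← hg, iso_pol hgO, h.uw]
      by_cases h2 : polar Q (g u) (L u) = 0
      · have h3 : ∃ q, polar Q (g u) (L q) ≠ 0 ∧ polar Q q (L u) = 0 := by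
          by_contra hcon
          push Not at hcon
          refine hnd (g u) (g w) (by rw [h1]; exact h12) h2 h0 ?_ ?_
          · by_contra h4
            exact hcon u' h4 u'u
          · by_contra h4
            exact hcon w' h4 w'u
        obtain ⟨q, hq, hq'⟩ := h3
        obtain ⟨T, hT, hTc, hTu, -⟩ := move2 hL (h.LL (g u)) (h.LL u) (q + w) (h.LL _)
          (by rw [map_add, pol_add_right, h0, add_zero]; exact hq)
          (by rw [pol_add_left, hq', wu, zero_add]; exact h11)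
        exact ⟨T, hT, hTc, hTu⟩
      · obtain ⟨T, hT, hTc, hTu, -⟩ := move hL (h.LL (g u)) (h.LL u) h2
        exact ⟨T, hT, hTc, hTu⟩
    · obtain ⟨T, hT, hTc, hTu, -⟩ := move2 hL (h.LL (g u)) (h.LL u) w (h.LL _) h0 (by rw [wu]; exact h11)
      exact ⟨T, hT, hTc, hTu⟩
  set g1 : V ≃ₗ[ZMod 3] V := T1 * g with hg1
  have hg1O : g1 ∈ O Q := mul_mem (E_le_O hT1) hgO
  have hg1c : Cm L g1 := hT1c.mul hg
  have hg1u : L (g1 u) = L u := hT1u
  -- step 2
  obtain ⟨T2, hT2, hT2c, hT2w, hT2z⟩ := move' hL (h.LL (g1 w)) (h.LL w) (w + u) (h.LL _)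
    (by
      intro h1
      rw [map_add, pol_add_right, h1, zero_add, ← hg1u, ← hg1c, iso_pol hg1O, wu]
      exact h11)
    (by rw [pol_add_left, hL.pol0, h.uw, zero_add]; exact h12)
  set g2 : V ≃ₗ[ZMod 3] V := T2 * g1 with hg2
  have hg2O : g2 ∈ O Q := mul_mem (E_le_O hT2) hg1O
  have hg2c : Cm L g2 := hT2c.mul hg1c
  have hg2w : L (g2 w) = L w := hT2w
  have hg2u : L (g2 u) = L u := by
    rw [← hg1u]
    refine hT2z (g1 u) ?_ ?_
    · rw [← hg1c, iso_pol hg1O, hg1c, hg1u]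
    · rw [hg1u, pol_add_left, hL.pol0, add_zero]
  -- pairings of images
  have hpr : ∀ (k : V ≃ₗ[ZMod 3] V), k ∈ O Q → Cm L k → ∀ x y, polar Q (k x) (L (k y)) = polar Q x (L y) := by
    intro k hk hkc x y
    rw [← hkc, iso_pol hk]
  -- step 3
  have e1 : polar Q (g2 u') (L u) = 0 := by rw [← hg2u, hpr g2 hg2O hg2c, u'u]
  have e2 : polar Q (g2 u') (L w) = 0 := by rw [← hg2w, hpr g2 hg2O hg2c, u'w]
  obtain ⟨T3, hT3, hT3c, hT3u, hT3z⟩ := move' hL (h.LL (g2 u')) (h.LL u') w' (h.LL _)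
    (by
      intro h1 h2
      exact hnd (g2 u') (g2 w') (by rw [hpr g2 hg2O hg2c, h.uw']; exact h12) e1 e2 h1 h2)
    (by rw [wu2]; exact h11)
  set g3 : V ≃ₗ[ZMod 3] V := T3 * g2 with hg3
  have hg3O : g3 ∈ O Q := mul_mem (E_le_O hT3) hg2O
  have hg3c : Cm L g3 := hT3c.mul hg2c
  have hg3u' : L (g3 u') = L u' := hT3u
  have hg3u : L (g3 u) = L u := by
    rw [← hg2u]
    refine hT3z (g2 u) ?_ ?_
    · rw [hpr g2 hg2O hg2c, hg2u]
    · rw [hg2u, w'u, u'u]
  have hg3w : L (g3 w) = L w := by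
    rw [← hg2w]
    refine hT3z (g2 w) ?_ ?_
    · rw [hpr g2 hg2O hg2c, hg2w]
    · rw [hg2w, w'w, u'w]
  -- step 4
  obtain ⟨T4, hT4, hT4c, hT4w, hT4z⟩ := move' hL (h.LL (g3 w')) (h.LL w') (w' + u') (h.LL _)
    (by
      intro h1
      rw [map_add, pol_add_right, h1, zero_add, ← hg3u', hpr g3 hg3O hg3c, wu2]
      exact h11)
    (by rw [pol_add_left, hL.pol0, h.uw', zero_add]; exact h12)
  set g4 : V ≃ₗ[ZMod 3] V := T4 * g3 with hg4
  have hg4O : g4 ∈ O Q := mul_mem (E_le_O hT4) hg3O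
  have hg4c : Cm L g4 := hT4c.mul hg3c
  have hg4w' : L (g4 w') = L w' := hT4w
  have hg4u' : L (g4 u') = L u' := by
    rw [← hg3u']
    refine hT4z (g3 u') ?_ ?_
    · rw [hpr g3 hg3O hg3c, hg3u']
    · rw [hg3u', pol_add_left, hL.pol0, add_zero]
  have hg4u : L (g4 u) = L u := by
    rw [← hg3u]
    refine hT4z (g3 u) ?_ ?_
    · rw [hpr g3 hg3O hg3c, hg3u]
    · rw [hg3u, pol_add_left, w'u, u'u, add_zero]
  have hg4w : L (g4 w) = L w := by
    rw [← hg3w]
    refine hT4z (g3 w) ?_ ?_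
    · rw [hpr g3 hg3O hg3c, hg3w]
    · rw [hg3w, pol_add_left, w'w, u'w, add_zero]
  -- the end
  have hfin : ∀ v, L (g4 v - v) = 0 := by
    intro v
    obtain ⟨a, b, c, d, v', hv⟩ := h.gen v
    rw [hv]
    simp only [map_add, map_smul, map_sub, hg4u, hg4w, hg4u', hg4w', hg4c v', h.LL]
    abel
  refine ⟨T4 * T3 * T2 * T1, mul_mem (mul_mem (mul_mem hT4 hT3) hT2) hT1, ?_⟩
  have e9 : T4 * T3 * T2 * T1 * g = g4 := by
    rw [hg4, hg3, hg2, hg1]
    simp only [mul_assoc]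
  rw [e9]
  refine unip5 hg4c ?_ ?_ ?_
  · intro v
    rw [hfin, map_zero]
  · intro v _
    exact ⟨0, g4 v - v, by rw [map_zero, zero_add], hfin v⟩
  · intro k hk
    obtain ⟨y', hy'⟩ := h.ker hL (hfin k)
    exact ⟨y', h.LL _, hy'⟩

end Cfsg.Agent.H844.Unip
end

-- part: H844/UnipClass
section
/-!
# Isometries of order three of quadratic spaces over `F₃` (helper844), III: classification in dimensions 7 and 8
-/

set_option autoImplicit false

namespace Cfsg.Agent.H844.Unip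

open QuadraticMap Cfsg.Agent.LieClassical.OrthCore

variable {V : Type*} [AddCommGroup V] [Module (ZMod 3) V] {Q : QuadraticForm (ZMod 3) V} {L : V →ₗ[ZMod 3] V}

/-- a frame of the subspace `W` -/
structure FrW (Q : QuadraticForm (ZMod 3) V) (L : V →ₗ[ZMod 3] V) (W : Submodule (ZMod 3) V) (S : Shp)
    (τ : Fin S.m → ZMod 3) (p : Fin S.m → V) : Prop where
  fr : Fr Q L S τ p
  ok : S.Ok
  mem : ∀ i, p i ∈ W
  dim : S.dim = Module.finrank (ZMod 3) W

theorem Shp.dim_bl (S : Shp) (l : ℕ) : (S.bl l).dim = S.dim + l := by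
  show ∑ i : Fin (S.m + 1), (Fin.cons l S.l : Fin (S.m + 1) → ℕ) i = _
  rw [Fin.sum_univ_succ, Fin.cons_zero]
  simp only [Fin.cons_succ]
  rw [add_comm]
  rfl

theorem Shp.dim_two (S : Shp) : S.two.dim = S.dim + 4 := by
  show ∑ i : Fin (S.m + 2), (Fin.cons 2 (Fin.cons 2 S.l) : Fin (S.m + 2) → ℕ) i = _
  rw [Fin.sum_univ_succ, Fin.cons_zero]
  simp only [Fin.cons_succ]
  rw [Fin.sum_univ_succ, Fin.cons_zero]
  simp only [Fin.cons_succ]
  have : S.dim = ∑ i, S.l i := rfl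
  omega

theorem Sk.pow_three (hL : Sk Q L) (k : ℕ) (hk : 3 ≤ k) (v : V) : (L ^ k) v = 0 := by
  obtain ⟨j, rfl⟩ : ∃ j, k = j + 3 := ⟨k - 3, by omega⟩
  rw [pow_add, Module.End.mul_apply]
  have : (L ^ 3) v = 0 := by
    rw [pow_succ', pow_succ', pow_one, Module.End.mul_apply, Module.End.mul_apply]
    exact hL.cube v
  rw [this, map_zero]

theorem pow_two_apply (v : V) : (L ^ 2) v = L (L v) := by rw [pow_two, Module.End.mul_apply]

/-- a property of all powers -/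
theorem forall_pow (hL : Sk Q L) {v w : V} {P : ℕ → ZMod 3 → Prop} (h0 : P 0 (polar Q v w)) (h1 : P 1 (polar Q v (L w)))
    (h2 : P 2 (polar Q v (L (L w)))) (h3 : ∀ k, 3 ≤ k → P k 0) (k : ℕ) : P k (polar Q v ((L ^ k) w)) := by
  rcases k with _ | _ | _ | k
  · exact h0
  · rw [zero_add, pow_one]; exact h1
  · rw [show 0 + 1 + 1 = 2 from rfl, pow_two_apply]; exact h2
  · rw [hL.pow_three _ (by omega), pol_zero_right]
    exact h3 _ (by omega)

variable [FiniteDimensional (ZMod 3) V] {W : Submodule (ZMod 3) V}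

omit [FiniteDimensional (ZMod 3) V] in
theorem perp_pow (hL : Sk Q L) {v y : V} (hy : y ∈ pp Q L W v) (k : ℕ) : polar Q v ((L ^ k) y) = 0 := by
  obtain ⟨-, h1, h2, h3⟩ := mem_pp.1 hy
  exact forall_pow hL (P := fun _ a => a = 0) h1 h2 h3 (fun _ _ => rfl) k

theorem FrW.three (hL : Sk Q L) (hW : Iv L W) (hN : Nd Q W) {v : V} (hv : v ∈ W) (hQ : Q v = 0)
    (hc : polar Q v (L (L v)) ≠ 0) {S : Shp} {τ : Fin S.m → ZMod 3} {p : Fin S.m → V}
    (hp : FrW Q L (pp Q L W v) S τ p) :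
    FrW Q L W (S.bl 3) (Fin.cons (polar Q v (L (L v))) τ) (Fin.cons v p : Fin (S.m + 1) → V) where
  fr := by
    refine hp.fr.bl hL hc (hL.pow_three 3 le_rfl v) ?_ (fun i k => perp_pow hL (hp.mem i) k)
    refine forall_pow hL (P := fun k a => a = if k + 1 = 3 then polar Q v (L (L v)) else 0) ?_ ?_ ?_ ?_
    · rw [if_neg (by omega)]; exact polar_self0 v hQ
    · rw [if_neg (by omega)]; exact hL.pol0 v
    · rw [if_pos rfl]
    · intro k hk
      rw [if_neg (by omega)]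
  ok := hp.ok.bl (by omega)
  mem i := by
    refine Fin.cases ?_ (fun i => ?_) i
    · exact hv
    · exact (mem_pp.1 (hp.mem i)).1
  dim := by rw [Shp.dim_bl, hp.dim, (three_split hL hW hN hv hQ hc).2]

theorem FrW.two (hL : Sk Q L) (hW : Iv L W) (hN : Nd Q W) (h2 : ∀ w ∈ W, L (L w) = 0) {u w : V} (hu : u ∈ W)
    (hw : w ∈ W) (hQu : Q u = 0) (hQw : Q w = 0) (huw : polar Q u w = 0) (huw1 : polar Q u (L w) = 1)
    {S : Shp} {τ : Fin S.m → ZMod 3} {p : Fin S.m → V} (hp : FrW Q L (pp Q L (pp Q L W u) w) S τ p) :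
    FrW Q L W S.two (Fin.cons 1 (Fin.cons (-1) τ : Fin (S.m + 1) → ZMod 3))
      (Fin.cons u (Fin.cons w p : Fin (S.m + 1) → V) : Fin (S.m + 2) → V) where
  fr := by
    have hLLu := h2 u hu
    have hLLw := h2 w hw
    refine hp.fr.two hL (by rw [pow_two_apply, hLLu]) (by rw [pow_two_apply, hLLw]) ?_ ?_ ?_ ?_ ?_
    · refine forall_pow hL (P := fun k a => a = 0) (polar_self0 u hQu) (hL.pol0 u) ?_ (fun _ _ => rfl)
      rw [hLLu, pol_zero_right]
    · refine forall_pow hL (P := fun k a => a = 0) (polar_self0 w hQw) (hL.pol0 w) ?_ (fun _ _ => rfl)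
      rw [hLLw, pol_zero_right]
    · refine forall_pow hL (P := fun k a => a = if k = 1 then 1 else 0) ?_ ?_ ?_ ?_
      · rw [if_neg (by omega)]; exact huw
      · rw [if_pos rfl]; exact huw1
      · rw [if_neg (by omega), hLLw, pol_zero_right]
      · intro k hk
        rw [if_neg (by omega)]
    · exact fun i k => perp_pow hL (mem_pp.1 (hp.mem i)).1 k
    · exact fun i k => perp_pow hL (hp.mem i) k
  ok := hp.ok.two
  mem i := by
    refine Fin.cases ?_ (fun i => Fin.cases ?_ (fun i => ?_) i) i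
    · exact hu
    · exact hw
    · exact (mem_pp.1 (mem_pp.1 (hp.mem i)).1).1
  dim := by rw [Shp.dim_two, hp.dim, (two_split hL hW hN h2 hu hw hQu hQw huw huw1).2]

theorem FrW.one (hL : Sk Q L) (hN : Nd Q W) {z : V} (hz : z ∈ W) (hc : polar Q z z ≠ 0) (h1 : ∀ w ∈ W, L w = 0)
    {S : Shp} {τ : Fin S.m → ZMod 3} {p : Fin S.m → V} (hp : FrW Q L (pp Q L W z) S τ p) :
    FrW Q L W (S.bl 1) (Fin.cons (polar Q z z) τ) (Fin.cons z p : Fin (S.m + 1) → V) where
  fr := by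
    have hLz := h1 z hz
    refine hp.fr.bl hL hc (by rw [pow_one, hLz]) ?_ (fun i k => perp_pow hL (hp.mem i) k)
    refine forall_pow hL (P := fun k a => a = if k + 1 = 1 then polar Q z z else 0) ?_ ?_ ?_ ?_
    · rw [if_pos rfl]
    · rw [if_neg (by omega), hLz, pol_zero_right]
    · rw [if_neg (by omega), hLz, map_zero, pol_zero_right]
    · intro k hk
      rw [if_neg (by omega)]
  ok := hp.ok.bl (by omega)
  mem i := by
    refine Fin.cases ?_ (fun i => ?_) i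
    · exact hz
    · exact (mem_pp.1 (hp.mem i)).1
  dim := by rw [Shp.dim_bl, hp.dim, (one_split hN hz hc h1).2]

omit [FiniteDimensional (ZMod 3) V] in
theorem FrW.nil (h : Module.finrank (ZMod 3) W = 0) : FrW Q L W Shp.nil Fin.elim0 Fin.elim0 where
  fr := Fr.nil
  ok := Shp.nil_ok
  mem i := i.elim0
  dim := h.symm

/-- `n` blocks of length one -/
def ones : ℕ → Shp
  | 0 => Shp.nil
  | n + 1 => (ones n).bl 1

/-- the values `1, …, 1, d` -/
def onesτ : (n : ℕ) → ZMod 3 → Fin (ones (n + 1)).m → ZMod 3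
  | 0, d => Fin.cons d Fin.elim0
  | n + 1, d => Fin.cons 1 (onesτ n d)

theorem no3 (hL : Sk Q L) (hW : Iv L W) (hN : Nd Q W) (h : Module.finrank (ZMod 3) W < 3) :
    ∀ w ∈ W, L (L w) = 0 := by
  by_contra hcon
  push Not at hcon
  obtain ⟨v, hv, hQ, hc⟩ := three_exists hL hW hN hcon
  have := (three_split hL hW hN hv hQ hc).2
  omega

theorem no2 (hL : Sk Q L) (hW : Iv L W) (hN : Nd Q W) (h2 : ∀ w ∈ W, L (L w) = 0)
    (h : Module.finrank (ZMod 3) W < 4) : ∀ w ∈ W, L w = 0 := by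
  by_contra hcon
  push Not at hcon
  obtain ⟨u, hu, w, hw, hQu, hQw, huw, huw1⟩ := two_exists hL hW hN h2 hcon
  have := (two_split hL hW hN h2 hu hw hQu hQw huw huw1).2
  omega

theorem ones_exists (hL : Sk Q L) (n : ℕ) : ∀ (W : Submodule (ZMod 3) V), Nd Q W → (∀ w ∈ W, L w = 0) →
    Module.finrank (ZMod 3) W = n + 1 → ∃ d p, FrW Q L W (ones (n + 1)) (onesτ n d) p := by
  induction n with
  | zero =>
    intro W hN h1 hd
    have hW : W ≠ ⊥ := by
      rintro rfl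
      rw [finrank_bot] at hd
      omega
    obtain ⟨z, hz, hc, -⟩ := one_exists' hN hW h1
    have h2 := (one_split hN hz hc h1).2
    exact ⟨polar Q z z, _, FrW.one hL hN hz hc h1 (FrW.nil (by omega))⟩
  | succ n ih =>
    intro W hN h1 hd
    have hW : W ≠ ⊥ := by
      rintro rfl
      rw [finrank_bot] at hd
      omega
    obtain ⟨z, hz, hc, h3⟩ := one_exists' hN hW h1
    have h2 := one_split hN hz hc h1
    have h4 : polar Q z z = 1 := by
      rcases h3 with h3 | h3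
      · exact h3
      · rw [h3, finrank_bot] at h2
        omega
    obtain ⟨d, p, hp⟩ := ih (pp Q L W z) h2.1 (fun w hw => h1 w (mem_pp.1 hw).1) (by omega)
    have h5 := FrW.one hL hN hz hc h1 hp
    rw [h4] at h5
    exact ⟨d, _, h5⟩

/-! ### The shapes -/

def shA : Shp := (((ones 1).bl 3).bl 3)
def shB : Shp := ((Shp.nil.two).bl 3)
def shC : Shp := ((ones 4).bl 3)
def shD : Shp := ((ones 3).two)

def shE : Shp := (((ones 2).bl 3).bl 3)
def shF : Shp := (((ones 1).two).bl 3)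
def shG : Shp := ((ones 5).bl 3)
def shH : Shp := (Shp.nil.two.two)
def shI : Shp := ((ones 4).two)

def tA (c d : ZMod 3) : Fin shA.m → ZMod 3 := Fin.cons 1 (Fin.cons c (onesτ 0 d) : Fin 2 → ZMod 3)
def tB (c : ZMod 3) : Fin shB.m → ZMod 3 := Fin.cons c (Fin.cons 1 (Fin.cons (-1) Fin.elim0) : Fin 2 → ZMod 3)
def tC (c d : ZMod 3) : Fin shC.m → ZMod 3 := Fin.cons c (onesτ 3 d)
def tD (d : ZMod 3) : Fin shD.m → ZMod 3 := Fin.cons 1 (Fin.cons (-1) (onesτ 2 d) : Fin 4 → ZMod 3)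

def tE (c d : ZMod 3) : Fin shE.m → ZMod 3 := Fin.cons 1 (Fin.cons c (onesτ 1 d) : Fin 3 → ZMod 3)
def tF (c d : ZMod 3) : Fin shF.m → ZMod 3 :=
  Fin.cons c (Fin.cons 1 (Fin.cons (-1) (onesτ 0 d) : Fin 2 → ZMod 3) : Fin 3 → ZMod 3)
def tG (c d : ZMod 3) : Fin shG.m → ZMod 3 := Fin.cons c (onesτ 4 d)
def tH : Fin shH.m → ZMod 3 :=
  Fin.cons 1 (Fin.cons (-1) (Fin.cons 1 (Fin.cons (-1) Fin.elim0)  : Fin 2 → ZMod 3) : Fin 3 → ZMod 3)
def tI (d : ZMod 3) : Fin shI.m → ZMod 3 := Fin.cons 1 (Fin.cons (-1) (onesτ 3 d) : Fin 5 → ZMod 3)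

omit [FiniteDimensional (ZMod 3) V] in
theorem nd_top (h : ∀ x : V, (∀ y : V, polar Q x y = 0) → x = 0) : Nd Q (⊤ : Submodule (ZMod 3) V) :=
  fun w _ hw => h w fun y => hw y trivial

/-- **Classification in dimension 7.** -/
theorem class7 (hL : Sk Q L) (hN : Nd Q (⊤ : Submodule (ZMod 3) V)) (hd : Module.finrank (ZMod 3) V = 7)
    (h0 : ∃ w, L w ≠ 0) :
    (∃ c d p, FrW Q L ⊤ shA (tA c d) p) ∨ (∃ c p, FrW Q L ⊤ shB (tB c) p) ∨ (∃ c d p, FrW Q L ⊤ shC (tC c d) p) ∨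
      (∃ d p, FrW Q L ⊤ shD (tD d) p) := by
  have hW : Iv L (⊤ : Submodule (ZMod 3) V) := fun _ _ => trivial
  have hd' : Module.finrank (ZMod 3) (⊤ : Submodule (ZMod 3) V) = 7 := by rw [finrank_top, hd]
  by_cases h3 : ∃ w ∈ (⊤ : Submodule (ZMod 3) V), L (L w) ≠ 0
  · obtain ⟨v, hv, hQ, hc, hc'⟩ := three_exists' hL hW hN h3
    obtain ⟨hN1, hd1⟩ := three_split hL hW hN hv hQ hc
    have hW1 := pp_iv hL hW v
    by_cases h4 : ∃ w ∈ pp Q L ⊤ v, L (L w) ≠ 0
    · left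
      have hc1 : polar Q v (L (L v)) = 1 := by
        rcases hc' with h | h
        · exact h
        · obtain ⟨w, hw, hw'⟩ := h4
          exact absurd (h w hw) hw'
      obtain ⟨v', hv', hQ', hcc⟩ := three_exists hL hW1 hN1 h4
      obtain ⟨hN2, hd2⟩ := three_split hL hW1 hN1 hv' hQ' hcc
      have hW2 := pp_iv hL hW1 v'
      have h5 := no3 hL hW2 hN2 (by omega)
      have h6 := no2 hL hW2 hN2 h5 (by omega)
      obtain ⟨d, p, hp⟩ := ones_exists hL 0 _ hN2 h6 (by omega)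
      have h7 := (hp.three hL hW1 hN1 hv' hQ' hcc).three hL hW hN hv hQ hc
      rw [hc1] at h7
      exact ⟨_, d, _, h7⟩
    · push Not at h4
      by_cases h5 : ∃ w ∈ pp Q L ⊤ v, L w ≠ 0
      · right; left
        obtain ⟨u, hu, w, hw, hQu, hQw, huw, huw1⟩ := two_exists hL hW1 hN1 h4 h5
        have hd2 := (two_split hL hW1 hN1 h4 hu hw hQu hQw huw huw1).2
        exact ⟨_, _, (FrW.two hL hW1 hN1 h4 hu hw hQu hQw huw huw1 (FrW.nil (by omega))).three hL hW hN hv hQ hc⟩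
      · push Not at h5
        right; right; left
        obtain ⟨d, p, hp⟩ := ones_exists hL 3 _ hN1 h5 (by omega)
        exact ⟨_, d, _, hp.three hL hW hN hv hQ hc⟩
  · push Not at h3
    right; right; right
    obtain ⟨w0, hw0⟩ := h0
    obtain ⟨u, hu, w, hw, hQu, hQw, huw, huw1⟩ := two_exists hL hW hN h3 ⟨w0, trivial, hw0⟩
    obtain ⟨hN1, hd1⟩ := two_split hL hW hN h3 hu hw hQu hQw huw huw1
    have hW1 := pp_iv hL (pp_iv hL hW u) w
    have h4 := no2 hL hW1 hN1 (fun y _ => h3 y trivial) (by omega)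
    obtain ⟨d, p, hp⟩ := ones_exists hL 2 _ hN1 h4 (by omega)
    exact ⟨d, _, FrW.two hL hW hN h3 hu hw hQu hQw huw huw1 hp⟩

/-- **Classification in dimension 8.** -/
theorem class8 (hL : Sk Q L) (hN : Nd Q (⊤ : Submodule (ZMod 3) V)) (hd : Module.finrank (ZMod 3) V = 8)
    (h0 : ∃ w, L w ≠ 0) :
    (∃ c d p, FrW Q L ⊤ shE (tE c d) p) ∨ (∃ c d p, FrW Q L ⊤ shF (tF c d) p) ∨
      (∃ c d p, FrW Q L ⊤ shG (tG c d) p) ∨ (∃ p, FrW Q L ⊤ shH tH p) ∨ (∃ d p, FrW Q L ⊤ shI (tI d) p) := by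
  have hW : Iv L (⊤ : Submodule (ZMod 3) V) := fun _ _ => trivial
  have hd' : Module.finrank (ZMod 3) (⊤ : Submodule (ZMod 3) V) = 8 := by rw [finrank_top, hd]
  by_cases h3 : ∃ w ∈ (⊤ : Submodule (ZMod 3) V), L (L w) ≠ 0
  · obtain ⟨v, hv, hQ, hc, hc'⟩ := three_exists' hL hW hN h3
    obtain ⟨hN1, hd1⟩ := three_split hL hW hN hv hQ hc
    have hW1 := pp_iv hL hW v
    by_cases h4 : ∃ w ∈ pp Q L ⊤ v, L (L w) ≠ 0
    · left
      have hc1 : polar Q v (L (L v)) = 1 := by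
        rcases hc' with h | h
        · exact h
        · obtain ⟨w, hw, hw'⟩ := h4
          exact absurd (h w hw) hw'
      obtain ⟨v', hv', hQ', hcc⟩ := three_exists hL hW1 hN1 h4
      obtain ⟨hN2, hd2⟩ := three_split hL hW1 hN1 hv' hQ' hcc
      have hW2 := pp_iv hL hW1 v'
      have h5 := no3 hL hW2 hN2 (by omega)
      have h6 := no2 hL hW2 hN2 h5 (by omega)
      obtain ⟨d, p, hp⟩ := ones_exists hL 1 _ hN2 h6 (by omega)
      have h7 := (hp.three hL hW1 hN1 hv' hQ' hcc).three hL hW hN hv hQ hc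
      rw [hc1] at h7
      exact ⟨_, d, _, h7⟩
    · push Not at h4
      by_cases h5 : ∃ w ∈ pp Q L ⊤ v, L w ≠ 0
      · right; left
        obtain ⟨u, hu, w, hw, hQu, hQw, huw, huw1⟩ := two_exists hL hW1 hN1 h4 h5
        obtain ⟨hN2, hd2⟩ := (two_split hL hW1 hN1 h4 hu hw hQu hQw huw huw1)
        have hW2 := pp_iv hL (pp_iv hL hW1 u) w
        have h6 := no2 hL hW2 hN2 (fun y hy => h4 y (mem_pp.1 (mem_pp.1 hy).1).1) (by omega)
        obtain ⟨d, p, hp⟩ := ones_exists hL 0 _ hN2 h6 (by omega)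
        exact ⟨_, d, _, (FrW.two hL hW1 hN1 h4 hu hw hQu hQw huw huw1 hp).three hL hW hN hv hQ hc⟩
      · push Not at h5
        right; right; left
        obtain ⟨d, p, hp⟩ := ones_exists hL 4 _ hN1 h5 (by omega)
        exact ⟨_, d, _, hp.three hL hW hN hv hQ hc⟩
  · push Not at h3
    right; right; right
    obtain ⟨w0, hw0⟩ := h0
    obtain ⟨u, hu, w, hw, hQu, hQw, huw, huw1⟩ := two_exists hL hW hN h3 ⟨w0, trivial, hw0⟩
    obtain ⟨hN1, hd1⟩ := two_split hL hW hN h3 hu hw hQu hQw huw huw1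
    have hW1 := pp_iv hL (pp_iv hL hW u) w
    by_cases h4 : ∃ y ∈ pp Q L (pp Q L ⊤ u) w, L y ≠ 0
    · left
      obtain ⟨u', hu', w', hw', hQu', hQw', huw', huw1'⟩ := two_exists hL hW1 hN1 (fun y _ => h3 y trivial) h4
      have hd2 := (two_split hL hW1 hN1 (fun y _ => h3 y trivial) hu' hw' hQu' hQw' huw' huw1').2
      exact ⟨_, FrW.two hL hW hN h3 hu hw hQu hQw huw huw1
        (FrW.two hL hW1 hN1 (fun y _ => h3 y trivial) hu' hw' hQu' hQw' huw' huw1' (FrW.nil (by omega)))⟩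
    · push Not at h4
      right
      obtain ⟨d, p, hp⟩ := ones_exists hL 3 _ hN1 h4 (by omega)
      exact ⟨d, _, FrW.two hL hW hN h3 hu hw hQu hQw huw huw1 hp⟩

end Cfsg.Agent.H844.Unip
end

-- part: H844/UnipInv
section
/-!
# Isometries of order three of quadratic spaces over `F₃` (helper844), V: invariants of the shapes
-/

set_option autoImplicit false

namespace Cfsg.Agent.H844.Unip

open QuadraticMap Cfsg.Agent.LieClassical.OrthCore

variable {V : Type*} [AddCommGroup V] [Module (ZMod 3) V] {Q : QuadraticForm (ZMod 3) V} {L L' : V →ₗ[ZMod 3] V}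
  {S : Shp} {τ : Fin S.m → ZMod 3} {p : Fin S.m → V} [FiniteDimensional (ZMod 3) V]

/-- the rank of the powers -/
theorem finrank_range_pow (hL : Sk Q L) (hS : S.Ok) (hp : Fr Q L S τ p) (hd : S.dim = Module.finrank (ZMod 3) V)
    (k : ℕ) : Module.finrank (ZMod 3) (LinearMap.range (L ^ k)) = ∑ i, (S.l i - k) := by
  have hb := hp.basis_apply hL hS hd
  set b := hp.basis hL hS hd
  let φ : (Σ i : Fin S.m, Fin (S.l i - k)) → (Σ i : Fin S.m, Fin (S.l i)) :=
    fun x => ⟨x.1, ⟨x.2 + k, by have := x.2.2; omega⟩⟩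
  have hφ : Function.Injective φ := by
    rintro ⟨i, s⟩ ⟨j, t⟩ h
    have h1 : i = j := congrArg Sigma.fst h
    subst h1
    have h2 := eq_of_heq (Sigma.mk.inj h).2
    have h3 : (s : ℕ) + k = (t : ℕ) + k := congrArg Fin.val h2
    have h4 : s = t := Fin.ext (by omega)
    rw [h4]
  have hli : LinearIndependent (ZMod 3) (fun x => b (φ x)) := b.linearIndependent.comp φ hφ
  have h1 := finrank_span_eq_card hli
  have h2 : Submodule.span (ZMod 3) (Set.range fun x => b (φ x)) = LinearMap.range (L ^ k) := by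
    apply le_antisymm
    · rw [Submodule.span_le]
      rintro _ ⟨x, rfl⟩
      refine ⟨(L ^ (x.2 : ℕ)) (p x.1), ?_⟩
      show _ = b (φ x)
      rw [hb, ← Module.End.mul_apply, ← pow_add]
      show (L ^ (k + (x.2 : ℕ))) (p x.1) = (L ^ ((x.2 : ℕ) + k)) (p x.1)
      rw [add_comm]
    · rw [LinearMap.range_eq_map, ← b.span_eq, Submodule.map_span, Submodule.span_le]
      rintro _ ⟨_, ⟨⟨i, s⟩, rfl⟩, rfl⟩
      rw [hb]
      show (L ^ k) ((L ^ (s : ℕ)) (p i)) ∈ _
      rw [← Module.End.mul_apply, ← pow_add]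
      by_cases h : k + (s : ℕ) < S.l i
      · apply Submodule.subset_span
        refine ⟨⟨i, ⟨s, by omega⟩⟩, ?_⟩
        show b (φ _) = _
        rw [hb]
        show (L ^ ((s : ℕ) + k)) (p i) = _
        rw [add_comm]
      · have h3 : (L ^ (k + (s : ℕ))) (p i) = 0 := by
          obtain ⟨j, hj⟩ : ∃ j, k + (s : ℕ) = j + S.l i := ⟨k + s - S.l i, by omega⟩
          rw [hj, pow_add, Module.End.mul_apply, hp.top, map_zero]
        rw [h3]
        exact Submodule.zero_mem _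
  rw [← h2, h1, Fintype.card_sigma]
  simp

/-- the second power on a frame -/
theorem LL_exp (hL : Sk Q L) (hS : S.Ok) (hp : Fr Q L S τ p) (hd : S.dim = Module.finrank (ZMod 3) V)
    (h3 : ∀ i, S.l i ≤ 3) (hs : ∀ i, S.l i = 3 → S.s i = i) (v : V) :
    L (L v) = ∑ i, if S.l i = 3 then (τ i * polar Q v (L (L (p i)))) • L (L (p i)) else 0 := by
  have hb := hp.basis_apply hL hS hd
  set b := hp.basis hL hS hd
  let M : V →ₗ[ZMod 3] V := ∑ i, if S.l i = 3 then
    (LinearMap.toSpanSingleton (ZMod 3) V (L (L (p i)))) ∘ₗ (τ i • polarBilin Q (L (L (p i)))) else 0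
  have hM : ∀ v, M v = ∑ i, if S.l i = 3 then (τ i * polar Q v (L (L (p i)))) • L (L (p i)) else 0 := by
    intro v
    rw [LinearMap.sum_apply]
    apply Finset.sum_congr rfl
    intro i _
    split_ifs
    · rw [LinearMap.comp_apply, LinearMap.toSpanSingleton_apply, LinearMap.smul_apply, smul_eq_mul,
        polarBilin_apply_apply, pol_comm]
    · rfl
  have h4 : L ∘ₗ L = M := by
    refine b.ext fun x => ?_
    obtain ⟨j, s⟩ := x
    rw [hM, hb]
    have e1 : ∀ i, polar Q (vec L S p ⟨j, s⟩) (L (L (p i))) =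
        (-1) ^ (s : ℕ) * (if i = S.s j ∧ (s : ℕ) + 2 + 1 = S.l j then τ j else 0) := by
      intro i
      show polar Q ((L ^ (s : ℕ)) (p j)) (L (L (p i))) = _
      rw [← pow_two_apply (L := L) (p i), hL.pow, ← Module.End.mul_apply, ← pow_add, hp.pair]
    have e2 : (L ∘ₗ L) (vec L S p ⟨j, s⟩) = (L ^ (2 + (s : ℕ))) (p j) := by
      show L (L ((L ^ (s : ℕ)) (p j))) = _
      rw [← pow_two_apply, ← Module.End.mul_apply, ← pow_add]
    rw [e2]
    by_cases hj : S.l j = 3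
    · by_cases hs0 : (s : ℕ) = 0
      · rw [Finset.sum_eq_single j]
        · rw [if_pos hj, e1, hs0, if_pos ⟨(hs j hj).symm, by omega⟩, pow_zero, one_mul, sq_eq_one (hp.ne j), one_smul,
            add_zero, pow_two_apply]
        · intro i _ hij
          split_ifs
          · rw [e1, if_neg, mul_zero, mul_zero, zero_smul]
            rintro ⟨h, -⟩
            rw [hs j hj] at h
            exact hij h
          · rfl
        · intro h; exact absurd (Finset.mem_univ _) h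
      · rw [hL.pow_three _ (by omega), Finset.sum_eq_zero]
        intro i _
        split_ifs
        · rw [e1, if_neg, mul_zero, mul_zero, zero_smul]
          rintro ⟨-, h⟩
          omega
        · rfl
    · have e3 : (L ^ (2 + (s : ℕ))) (p j) = 0 := by
        obtain ⟨k, hk⟩ : ∃ k, 2 + (s : ℕ) = k + S.l j := ⟨2 + s - S.l j, by have := h3 j; omega⟩
        rw [hk, pow_add, Module.End.mul_apply, hp.top, map_zero]
      rw [e3, Finset.sum_eq_zero]
      intro i _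
      split_ifs
      · rw [e1, if_neg, mul_zero, mul_zero, zero_smul]
        rintro ⟨-, h⟩
        have := h3 j
        omega
      · rfl
  rw [← hM, ← h4]
  rfl

/-- invariant: the value 2 is represented by `b(v, L² v)` -/
def P2 (Q : QuadraticForm (ZMod 3) V) (L : V →ₗ[ZMod 3] V) : Prop := ∃ v, polar Q v (L (L v)) = 2

/-- invariant: the value 0 is represented nontrivially by `b(v, L² v)` -/
def P3 (Q : QuadraticForm (ZMod 3) V) (L : V →ₗ[ZMod 3] V) : Prop := ∃ v, L (L v) ≠ 0 ∧ polar Q v (L (L v)) = 0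

omit [FiniteDimensional (ZMod 3) V] in
theorem range_of_comm {g : V ≃ₗ[ZMod 3] V} (hg : ∀ v, g (L v) = L' (g v)) (k : ℕ) :
    Module.finrank (ZMod 3) (LinearMap.range (L ^ k)) = Module.finrank (ZMod 3) (LinearMap.range (L' ^ k)) := by
  have h1 : ∀ k v, g ((L ^ k) v) = (L' ^ k) (g v) := by
    intro k
    induction k with
    | zero => intro v; rfl
    | succ k ih =>
      intro v
      rw [pow_succ, pow_succ, Module.End.mul_apply, Module.End.mul_apply, ih, hg]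
  have h2 : (LinearMap.range (L ^ k)).map (g : V →ₗ[ZMod 3] V) = LinearMap.range (L' ^ k) := by
    ext y
    constructor
    · rintro ⟨_, ⟨v, rfl⟩, rfl⟩
      exact ⟨g v, (h1 k v).symm⟩
    · rintro ⟨v, rfl⟩
      refine ⟨(L ^ k) (g.symm v), ⟨_, rfl⟩, ?_⟩
      show g ((L ^ k) (g.symm v)) = _
      rw [h1, g.apply_symm_apply]
  rw [← h2]
  exact (g.submoduleMap (LinearMap.range (L ^ k))).finrank_eq

omit [FiniteDimensional (ZMod 3) V] in
theorem P2_of_comm {g : V ≃ₗ[ZMod 3] V} (hgO : g ∈ O Q) (hg : ∀ v, g (L v) = L' (g v)) (h : P2 Q L) : P2 Q L' := by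
  obtain ⟨v, hv⟩ := h
  refine ⟨g v, ?_⟩
  rw [← hg, ← hg, polar_map hgO, hv]

omit [FiniteDimensional (ZMod 3) V] in
theorem P3_of_comm {g : V ≃ₗ[ZMod 3] V} (hgO : g ∈ O Q) (hg : ∀ v, g (L v) = L' (g v)) (h : P3 Q L) : P3 Q L' := by
  obtain ⟨v, hv, hv'⟩ := h
  refine ⟨g v, ?_, ?_⟩
  · rw [← hg, ← hg]
    intro h
    exact hv (g.injective (by rw [h, map_zero]))
  · rw [← hg, ← hg, polar_map hgO, hv']

end Cfsg.Agent.H844.Unip
end

-- part: H844/UnipDl
section
/-!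
# Isometries of order three of quadratic spaces over `F₃` (helper844), VI: determinant and spinor sign; assembly
-/

set_option autoImplicit false
set_option linter.unusedSectionVars false

namespace Cfsg.Agent.H844.Unip

open QuadraticMap Cfsg.Agent.LieClassical.OrthCore Cfsg.Agent.LieClassical.OrthTrans

variable {ι : Type} [Fintype ι] [DecidableEq ι] (Q : QuadraticForm (ZMod 3) (ι → ZMod 3))

/-- determinant and spinor sign -/
abbrev AA := (ZMod 3)ˣ × ℤˣ

/-- determinant and spinor sign -/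
noncomputable def dl : O Q →* AA := (LinearEquiv.det.comp (O Q).subtype).prod (FooteOrth.sg Q)

variable {Q}

theorem two_ne : (2 : ZMod 3) ≠ 0 := by decide

theorem isSquare_iff {a : ZMod 3} (h : a ≠ 0) : IsSquare a ↔ a = 1 := by
  constructor
  · rintro ⟨b, rfl⟩
    revert h
    revert b
    decide
  · rintro rfl
    exact ⟨1, by decide⟩

theorem dl_refl {v : ι → ZMod 3} (hv : Q v ≠ 0) :
    dl Q ⟨refl Q v hv, refl_mem_O hv⟩ = (-1, if Q v = 1 then -1 else 1) := by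
  classical
  apply Prod.ext
  · exact FooteOrth.det_refl hv
  · show FooteOrth.sg Q ⟨refl Q v hv, refl_mem_O hv⟩ = _
    rw [FooteOrth.sg_refl two_ne hv]
    simp only [isSquare_iff hv]

theorem dl_refl_one {v : ι → ZMod 3} (hv : Q v ≠ 0) (h : Q v = 1) : dl Q ⟨refl Q v hv, refl_mem_O hv⟩ = (-1, -1) := by
  rw [dl_refl, if_pos h]

theorem dl_refl_two {v : ι → ZMod 3} (hv : Q v ≠ 0) (h : Q v = 2) : dl Q ⟨refl Q v hv, refl_mem_O hv⟩ = (-1, 1) := by
  rw [dl_refl, if_neg]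
  rw [h]
  decide

theorem mem_E_iff_dl (hG : Good Q) (g : O Q) : (g : (ι → ZMod 3) ≃ₗ[ZMod 3] (ι → ZMod 3)) ∈ E Q ↔ dl Q g = 1 := by
  rw [FooteOrth.mem_E_iff hG two_ne g.2, Prod.ext_iff]
  rfl

theorem AA_sq : ∀ a : AA, a * a = 1 := by decide

theorem AA_nine : ∀ a : AA, a ^ 9 = 1 → a = 1 := by decide

theorem AA_three : ∀ a : AA, a ^ 3 = 1 → a = 1 := by decide

theorem dl_of_nine (g : O Q) (h : ((g : (ι → ZMod 3) ≃ₗ[ZMod 3] (ι → ZMod 3))) ^ 9 = 1) : dl Q g = 1 := by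
  have h1 : g ^ 9 = 1 := by
    apply Subtype.ext
    rw [Subgroup.coe_pow, h, Subgroup.coe_one]
  apply AA_nine
  rw [← map_pow, h1, map_one]

theorem dl_of_three {g : O Q} (h : g ^ 3 = 1) : dl Q g = 1 := by
  apply AA_three
  rw [← map_pow, h, map_one]

/-- the exponential as an element of the isometry group -/
def exO {L : (ι → ZMod 3) →ₗ[ZMod 3] (ι → ZMod 3)} (hL : Sk Q L) : O Q := ⟨ex hL, ex_mem hL⟩

variable {L L' : (ι → ZMod 3) →ₗ[ZMod 3] (ι → ZMod 3)}

theorem exO_three (hL : Sk Q L) : (exO hL) ^ 3 = 1 := by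
  apply Subtype.ext
  ext1 v
  rw [pow_succ, pow_two]
  exact ex_cube hL v

theorem conj_ex_of {hL : Sk Q L} {hL' : Sk Q L'} {g : O Q}
    (h : ∀ v, (g : (ι → ZMod 3) ≃ₗ[ZMod 3] (ι → ZMod 3)) (L v) = L' ((g : (ι → ZMod 3) ≃ₗ[ZMod 3] (ι → ZMod 3)) v)) :
    g * exO hL * g⁻¹ = exO hL' := by
  rw [mul_inv_eq_iff_eq_mul]
  apply Subtype.ext
  ext1 v
  show (g : (ι → ZMod 3) ≃ₗ[ZMod 3] (ι → ZMod 3)) (ex hL v) = ex hL' ((g : (ι → ZMod 3) ≃ₗ[ZMod 3] (ι → ZMod 3)) v)
  rw [ex_apply, ex_apply, map_sub, map_add, h, h, h]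

theorem of_conj_ex {hL : Sk Q L} {hL' : Sk Q L'} {g : O Q} (h : g * exO hL * g⁻¹ = exO hL') (v : ι → ZMod 3) :
    (g : (ι → ZMod 3) ≃ₗ[ZMod 3] (ι → ZMod 3)) (L v) = L' ((g : (ι → ZMod 3) ≃ₗ[ZMod 3] (ι → ZMod 3)) v) := by
  have h1 := congrArg Subtype.val h
  have h2 := comm_of_conj (x := ex hL) (y := ex hL') (g := (g : (ι → ZMod 3) ≃ₗ[ZMod 3] (ι → ZMod 3))) h1 v
  rwa [lg_ex, lg_ex] at h2

/-- the negative of a skew map -/
theorem Sk.neg (hL : Sk Q L) : Sk Q (-L) where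
  skew v w := by
    rw [LinearMap.neg_apply, LinearMap.neg_apply, pol_neg_left, pol_neg_right, hL.skew]
  cube v := by
    simp only [LinearMap.neg_apply, map_neg, hL.cube, neg_zero]

theorem exO_neg (hL : Sk Q L) : exO hL.neg = (exO hL)⁻¹ := by
  rw [eq_inv_iff_mul_eq_one]
  apply Subtype.ext
  ext1 v
  show ex hL.neg (ex hL v) = v
  rw [ex_apply, ex_apply]
  simp only [LinearMap.neg_apply, map_neg, map_add, map_sub, hL.cube, neg_zero, neg_neg, sub_zero]
  linear_combination (norm := module) (-1 : ℤ) • add3 (L (L v))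

/-- every element of order three is an exponential -/
theorem exists_exO {x : O Q} (h : x ^ 3 = 1) : ∃ (L : (ι → ZMod 3) →ₗ[ZMod 3] (ι → ZMod 3)) (hL : Sk Q L), x = exO hL := by
  have h3 : ∀ v, (x : (ι → ZMod 3) ≃ₗ[ZMod 3] (ι → ZMod 3)) ((x : (ι → ZMod 3) ≃ₗ[ZMod 3] (ι → ZMod 3))
      ((x : (ι → ZMod 3) ≃ₗ[ZMod 3] (ι → ZMod 3)) v)) = v := by
    intro v
    have h1 := congrArg Subtype.val h
    have h2 := LinearEquiv.congr_fun h1 v
    rw [Subgroup.coe_pow, pow_succ, pow_two] at h2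
    exact h2
  refine ⟨lg (x : (ι → ZMod 3) ≃ₗ[ZMod 3] (ι → ZMod 3)), Sk.of_mem x.2 h3, ?_⟩
  apply Subtype.ext
  ext1 v
  show (x : (ι → ZMod 3) ≃ₗ[ZMod 3] (ι → ZMod 3)) v = ex (Sk.of_mem x.2 h3) v
  rw [ex_apply]
  exact apply_eq h3 v

end Cfsg.Agent.H844.Unip
end

-- part: H844/UnipTools
section
/-!
# Isometries of order three of quadratic spaces over `F₃` (helper844), VII: tools for explicit models
-/

set_option autoImplicit false
set_option linter.unusedSectionVars false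

namespace Cfsg.Agent.H844.Unip

open QuadraticMap Cfsg.Agent.LieClassical.OrthCore Cfsg.Agent.LieClassical.OrthTrans

section General

variable {V : Type*} [AddCommGroup V] [Module (ZMod 3) V] (Q : QuadraticForm (ZMod 3) V)

/-- the infinitesimal Siegel transformation -/
def dd (u w : V) : V →ₗ[ZMod 3] V where
  toFun v := polar Q u v • w - polar Q w v • u
  map_add' a b := by
    rw [pol_add_right, pol_add_right, add_smul, add_smul]; abel
  map_smul' a b := by
    rw [pol_smul_right, pol_smul_right, mul_smul, mul_smul, RingHom.id_apply, smul_sub]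

theorem dd_apply (u w v : V) : dd Q u w v = polar Q u v • w - polar Q w v • u := rfl

theorem dd_skew (u w v v' : V) : polar Q (dd Q u w v) v' = - polar Q v (dd Q u w v') := by
  simp only [dd_apply, pol_sub_left, pol_sub_right, pol_smul_left, pol_smul_right]
  rw [pol_comm v w, pol_comm v u]
  ring

/-- the reflection as a linear map, `F₃` -/
def rf (v : V) : V →ₗ[ZMod 3] V where
  toFun x := x - (Q v * polar Q v x) • v
  map_add' a b := by
    rw [pol_add_right, mul_add, add_smul]; abel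
  map_smul' a b := by
    rw [pol_smul_right, RingHom.id_apply, smul_sub, smul_smul]
    congr 2
    ring

theorem rf_apply (v x : V) : rf Q v x = x - (Q v * polar Q v x) • v := rfl

theorem inv3 {a : ZMod 3} (h : a ≠ 0) : a⁻¹ = a := by
  have h1 := inv_mul_self3 h
  exact inv_eq_of_mul_eq_one_left h1

theorem refl_eq_rf {v : V} (hv : Q v ≠ 0) (x : V) : refl Q v hv x = rf Q v x := by
  rw [refl_apply, rf_apply, inv3 hv]

variable {Q} {L : V →ₗ[ZMod 3] V} {S : Shp} {τ : Fin S.m → ZMod 3} {p : Fin S.m → V}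

/-- powers 0, 1, 2 -/
def Lk (L : V →ₗ[ZMod 3] V) : ℕ → V → V
  | 0, v => v
  | 1, v => L v
  | 2, v => L (L v)
  | _, _ => 0

theorem Lk_eq (hL : Sk Q L) (k : ℕ) (v : V) : (L ^ k) v = Lk L k v := by
  rcases k with _ | _ | _ | k
  · rfl
  · rw [zero_add, pow_one]; rfl
  · rw [show 0 + 1 + 1 = 2 from rfl, pow_two_apply]; rfl
  · rw [hL.pow_three _ (by omega)]; rfl

/-- a frame from a finite table -/
theorem Fr.of_table (hL : Sk Q L) (h1 : ∀ i, Lk L (S.l i) (p i) = 0) (h2 : ∀ i, S.l i ≤ 3)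
    (h3 : ∀ i j, ∀ k : Fin 3, polar Q (p i) (Lk L k (p j)) = if j = S.s i ∧ (k : ℕ) + 1 = S.l i then τ i else 0)
    (h4 : ∀ i, τ i ≠ 0) : Fr Q L S τ p where
  top i := by rw [Lk_eq hL, h1]
  pair i j k := by
    by_cases hk : k < 3
    · rw [Lk_eq hL]
      exact h3 i j ⟨k, hk⟩
    · rw [hL.pow_three k (by omega), pol_zero_right, if_neg]
      rintro ⟨-, h⟩
      have := h2 i
      omega
  ne := h4

/-- generators modulo the image of `L` -/
theorem Fr.gens [FiniteDimensional (ZMod 3) V] (hL : Sk Q L) (hS : S.Ok) (hp : Fr Q L S τ p)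
    (hd : S.dim = Module.finrank (ZMod 3) V) (y : V) : ∃ (c : Fin S.m → ZMod 3) (y' : V), y = ∑ i, c i • p i + L y' := by
  have hb := hp.basis_apply hL hS hd
  set b := hp.basis hL hS hd
  have hy : y ∈ Submodule.span (ZMod 3) (Set.range b) := by rw [b.span_eq]; trivial
  induction hy using Submodule.span_induction with
  | mem x hx =>
    obtain ⟨⟨i, s⟩, rfl⟩ := hx
    rw [hb]
    obtain ⟨s, hs⟩ := s
    rcases s with _ | s
    · refine ⟨Pi.single i 1, 0, ?_⟩
      rw [map_zero, add_zero, Finset.sum_eq_single i]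
      · rw [Pi.single_eq_same, one_smul]
        rfl
      · intro j _ hj
        rw [Pi.single_eq_of_ne hj, zero_smul]
      · intro h; exact absurd (Finset.mem_univ _) h
    · refine ⟨0, (L ^ s) (p i), ?_⟩
      rw [Finset.sum_eq_zero (fun j _ => by rw [Pi.zero_apply, zero_smul]), zero_add]
      show (L ^ (s + 1)) (p i) = _
      rw [pow_succ', Module.End.mul_apply]
  | zero => exact ⟨0, 0, by simp⟩
  | add x y _ _ hx hy =>
    obtain ⟨c, x', hx⟩ := hx
    obtain ⟨c', y', hy⟩ := hy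
    refine ⟨c + c', x' + y', ?_⟩
    rw [hx, hy, map_add]
    simp only [Pi.add_apply, add_smul, Finset.sum_add_distrib]
    abel
  | smul a x _ hx =>
    obtain ⟨c, x', hx⟩ := hx
    refine ⟨a • c, a • x', ?_⟩
    rw [hx, map_smul, smul_add, Finset.smul_sum]
    simp only [Pi.smul_apply, smul_eq_mul, mul_smul]

/-- one block of length three: the second power -/
theorem LL_one [FiniteDimensional (ZMod 3) V] (hL : Sk Q L) (hS : S.Ok) (hp : Fr Q L S τ p)
    (hd : S.dim = Module.finrank (ZMod 3) V)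
    (h3 : ∀ i, S.l i ≤ 3) (hs : ∀ i, S.l i = 3 → S.s i = i) (i0 : Fin S.m) (h0 : S.l i0 = 3)
    (h1 : ∀ i, i ≠ i0 → S.l i ≠ 3) (v : V) :
    L (L v) = (τ i0 * polar Q v (L (L (p i0)))) • L (L (p i0)) := by
  rw [LL_exp hL hS hp hd h3 hs, Finset.sum_eq_single i0, if_pos h0]
  · intro i _ hi
    rw [if_neg (h1 i hi)]
  · intro h; exact absurd (Finset.mem_univ _) h

/-- two blocks of length three: the second power -/
theorem LL_two [FiniteDimensional (ZMod 3) V] (hL : Sk Q L) (hS : S.Ok) (hp : Fr Q L S τ p)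
    (hd : S.dim = Module.finrank (ZMod 3) V)
    (h3 : ∀ i, S.l i ≤ 3) (hs : ∀ i, S.l i = 3 → S.s i = i) (i0 i1 : Fin S.m) (h01 : i0 ≠ i1) (h0 : S.l i0 = 3)
    (h0' : S.l i1 = 3) (h1 : ∀ i, i ≠ i0 → i ≠ i1 → S.l i ≠ 3) (v : V) :
    L (L v) = (τ i0 * polar Q v (L (L (p i0)))) • L (L (p i0)) + (τ i1 * polar Q v (L (L (p i1)))) • L (L (p i1)) := by
  rw [LL_exp hL hS hp hd h3 hs, Finset.sum_eq_add i0 i1 h01, if_pos h0, if_pos h0']
  · intro i _ hi
    rw [if_neg (h1 i hi.1 hi.2)]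
  · intro h; exact absurd (Finset.mem_univ _) h
  · intro h; exact absurd (Finset.mem_univ _) h

theorem not_P2 [FiniteDimensional (ZMod 3) V] (hL : Sk Q L) (hS : S.Ok) (hp : Fr Q L S τ p)
    (hd : S.dim = Module.finrank (ZMod 3) V)
    (h3 : ∀ i, S.l i ≤ 3) (hs : ∀ i, S.l i = 3 → S.s i = i) (i0 : Fin S.m) (h0 : S.l i0 = 3)
    (h1 : ∀ i, i ≠ i0 → S.l i ≠ 3) (hτ : τ i0 = 1) : ¬ P2 Q L := by
  rintro ⟨v, hv⟩
  rw [LL_one hL hS hp hd h3 hs i0 h0 h1 v, hτ, pol_smul_right] at hv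
  revert hv
  generalize polar Q v (L (L (p i0))) = a
  revert a
  decide

theorem not_P3 [FiniteDimensional (ZMod 3) V] (hL : Sk Q L) (hS : S.Ok) (hp : Fr Q L S τ p)
    (hd : S.dim = Module.finrank (ZMod 3) V)
    (h3 : ∀ i, S.l i ≤ 3) (hs : ∀ i, S.l i = 3 → S.s i = i) (i0 i1 : Fin S.m) (h01 : i0 ≠ i1) (h0 : S.l i0 = 3)
    (h0' : S.l i1 = 3) (h1 : ∀ i, i ≠ i0 → i ≠ i1 → S.l i ≠ 3) (hτ : τ i0 = 1) (hτ' : τ i1 = 1) : ¬ P3 Q L := by
  rintro ⟨v, hv, hv'⟩
  have h2 := LL_two hL hS hp hd h3 hs i0 i1 h01 h0 h0' h1 v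
  rw [h2, hτ, hτ', pol_add_right, pol_smul_right, pol_smul_right] at hv'
  have h4 : ∀ a b : ZMod 3, 1 * a * a + 1 * b * b = 0 → a = 0 ∧ b = 0 := by decide
  obtain ⟨h5, h6⟩ := h4 _ _ hv'
  apply hv
  rw [h2, h5, h6, mul_zero, zero_smul, mul_zero, zero_smul, add_zero]

end General

section Pi

variable {ι : Type} [Fintype ι] [DecidableEq ι] {Q : QuadraticForm (ZMod 3) (ι → ZMod 3)}

theorem ext_basis {M M' : (ι → ZMod 3) →ₗ[ZMod 3] (ι → ZMod 3)} (h : ∀ i, M (Pi.single i 1) = M' (Pi.single i 1))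
    (v : ι → ZMod 3) : M v = M' v := by
  have : M = M' := LinearMap.pi_ext' fun i => LinearMap.ext_ring (h i)
  rw [this]

theorem sk_of {L : (ι → ZMod 3) →ₗ[ZMod 3] (ι → ZMod 3)} (h : ∀ v w, polar Q (L v) w = - polar Q v (L w))
    (h3 : ∀ i, L (L (L (Pi.single i 1))) = 0) : Sk Q L where
  skew := h
  cube := ext_basis (M := L ∘ₗ L ∘ₗ L) (M' := 0) h3

end Pi

end Cfsg.Agent.H844.Unip
end

-- part: H844/UnipModel
section
/-!
# Isometries of order three of quadratic spaces over `F₃` (helper844), VIII: explicit models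
-/

set_option autoImplicit false
set_option linter.unusedSectionVars false

namespace Cfsg.Agent.H844.Unip

open QuadraticMap Cfsg.Agent.LieClassical.OrthCore Cfsg.Agent.LieClassical.OrthTrans

variable {ι : Type} [Fintype ι] [DecidableEq ι] (Q : QuadraticForm (ZMod 3) (ι → ZMod 3))

/-- the reflection, or `1` -/
noncomputable def rfe (v : ι → ZMod 3) : O Q := if h : Q v ≠ 0 then ⟨refl Q v h, refl_mem_O h⟩ else 1

theorem rfe_apply (v x : ι → ZMod 3) : (rfe Q v : (ι → ZMod 3) ≃ₗ[ZMod 3] (ι → ZMod 3)) x = rf Q v x := by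
  rw [rfe]
  split_ifs with h
  · exact refl_eq_rf Q h x
  · rw [not_not] at h
    rw [rf_apply, h, zero_mul, zero_smul, sub_zero]
    rfl

/-- the type of a reflection -/
def tq (a : ZMod 3) : AA := if a = 0 then 1 else if a = 1 then (-1, -1) else (-1, 1)

theorem dl_rfe (v : ι → ZMod 3) : dl Q (rfe Q v) = tq (Q v) := by
  by_cases h : Q v = 0
  · rw [rfe, dif_neg (not_not.2 h), tq, if_pos h, map_one]
  · rw [rfe, dif_pos h, tq, if_neg h, dl_refl]
    by_cases h2 : Q v = 1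
    · rw [if_pos h2, if_pos h2]
    · rw [if_neg h2, if_neg h2]

/-- products of reflections -/
noncomputable def rfs (l : List (ι → ZMod 3)) : O Q := (l.map (rfe Q)).prod

/-- the action of a product of reflections -/
def rfa : List (ι → ZMod 3) → ((ι → ZMod 3) →ₗ[ZMod 3] (ι → ZMod 3))
  | [] => LinearMap.id
  | v :: l => rf Q v ∘ₗ rfa l

theorem rfs_apply (l : List (ι → ZMod 3)) (x : ι → ZMod 3) :
    (rfs Q l : (ι → ZMod 3) ≃ₗ[ZMod 3] (ι → ZMod 3)) x = rfa Q l x := by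
  induction l generalizing x with
  | nil => rfl
  | cons v l ih =>
    rw [rfs, List.map_cons, List.prod_cons]
    show (rfe Q v : (ι → ZMod 3) ≃ₗ[ZMod 3] (ι → ZMod 3)) ((rfs Q l : (ι → ZMod 3) ≃ₗ[ZMod 3] (ι → ZMod 3)) x) = _
    rw [ih, rfe_apply]
    rfl

theorem dl_rfs (l : List (ι → ZMod 3)) : dl Q (rfs Q l) = (l.map fun v => tq (Q v)).prod := by
  rw [rfs, map_list_prod, List.map_map]
  congr 1
  apply List.map_congr_left
  intro v _
  exact dl_rfe Q v

variable {Q} {L L' : (ι → ZMod 3) →ₗ[ZMod 3] (ι → ZMod 3)}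

/-- intertwining from a table -/
theorem rfs_comm {l : List (ι → ZMod 3)} (h : ∀ i, rfa Q l (L (Pi.single i 1)) = L' (rfa Q l (Pi.single i 1)))
    (v : ι → ZMod 3) : (rfs Q l : (ι → ZMod 3) ≃ₗ[ZMod 3] (ι → ZMod 3)) (L v)
      = L' ((rfs Q l : (ι → ZMod 3) ≃ₗ[ZMod 3] (ι → ZMod 3)) v) := by
  rw [rfs_apply, rfs_apply]
  exact ext_basis (M := rfa Q l ∘ₗ L) (M' := L' ∘ₗ rfa Q l) h v

theorem AA_cases (a : AA) : a = 1 ∨ a = (-1, 1) ∨ a = (-1, -1) ∨ a = (-1, 1) * (-1, -1) := by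
  revert a; decide

/-- the centralizer has full image -/
theorem full (hL : Sk Q L) (l1 l2 : List (ι → ZMod 3))
    (h1 : ∀ i, rfa Q l1 (L (Pi.single i 1)) = L (rfa Q l1 (Pi.single i 1)))
    (h1' : (l1.map fun v => tq (Q v)).prod = (-1, 1))
    (h2 : ∀ i, rfa Q l2 (L (Pi.single i 1)) = L (rfa Q l2 (Pi.single i 1)))
    (h2' : (l2.map fun v => tq (Q v)).prod = (-1, -1)) (a : AA) :
    ∃ g, g * exO hL * g⁻¹ = exO hL ∧ dl Q g = a := by
  have e1 : rfs Q l1 * exO hL * (rfs Q l1)⁻¹ = exO hL := conj_ex_of (rfs_comm h1)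
  have e2 : rfs Q l2 * exO hL * (rfs Q l2)⁻¹ = exO hL := conj_ex_of (rfs_comm h2)
  rcases AA_cases a with h | h | h | h
  · exact ⟨1, by rw [one_mul, inv_one, mul_one], by rw [map_one, h]⟩
  · exact ⟨_, e1, by rw [dl_rfs, h1', h]⟩
  · exact ⟨_, e2, by rw [dl_rfs, h2', h]⟩
  · refine ⟨rfs Q l1 * rfs Q l2, ?_, by rw [map_mul, dl_rfs, dl_rfs, h1', h2', h]⟩
    have : rfs Q l1 * rfs Q l2 * exO hL * (rfs Q l1 * rfs Q l2)⁻¹
        = rfs Q l1 * (rfs Q l2 * exO hL * (rfs Q l2)⁻¹) * (rfs Q l1)⁻¹ := by group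
    rw [this, e2, e1]

/-- the centralizer contains at least this -/
theorem half (hL : Sk Q L) (l1 : List (ι → ZMod 3)) (b : AA)
    (h1 : ∀ i, rfa Q l1 (L (Pi.single i 1)) = L (rfa Q l1 (Pi.single i 1)))
    (h1' : (l1.map fun v => tq (Q v)).prod = b) (a : AA) (ha : a = 1 ∨ a = b) :
    ∃ g, g * exO hL * g⁻¹ = exO hL ∧ dl Q g = a := by
  have e1 : rfs Q l1 * exO hL * (rfs Q l1)⁻¹ = exO hL := conj_ex_of (rfs_comm h1)
  rcases ha with h | h
  · exact ⟨1, by rw [one_mul, inv_one, mul_one], by rw [map_one, h]⟩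
  · exact ⟨_, e1, by rw [dl_rfs, h1', h]⟩

/-- reality from a table -/
theorem real_of (hL : Sk Q L) (l1 : List (ι → ZMod 3))
    (h1 : ∀ i, rfa Q l1 (L (Pi.single i 1)) = (-L) (rfa Q l1 (Pi.single i 1))) :
    rfs Q l1 * exO hL * (rfs Q l1)⁻¹ = (exO hL)⁻¹ := by
  rw [← exO_neg]
  exact conj_ex_of (rfs_comm h1)

variable (Q) in
/-- a type -/
structure Typ where
  L : (ι → ZMod 3) →ₗ[ZMod 3] (ι → ZMod 3)
  S : Shp
  τ : Fin S.m → ZMod 3
  p : Fin S.m → ι → ZMod 3
  p' : Fin S.m → ι → ZMod 3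
  sk : Sk Q L
  ok : S.Ok
  dim : S.dim = Module.finrank (ZMod 3) (ι → ZMod 3)
  fr : Fr Q L S τ p
  fr' : Fr Q (-L) S τ p'

/-- the rank of a power -/
def Shp.rk (S : Shp) (k : ℕ) : ℕ := ∑ i, (S.l i - k)

theorem Typ.rank (M : Typ Q) (k : ℕ) : Module.finrank (ZMod 3) (LinearMap.range (M.L ^ k)) = M.S.rk k :=
  finrank_range_pow M.sk M.ok M.fr M.dim k

theorem Typ.rank' (M : Typ Q) (k : ℕ) : Module.finrank (ZMod 3) (LinearMap.range ((-M.L) ^ k)) = M.S.rk k :=
  finrank_range_pow M.sk.neg M.ok M.fr' M.dim k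

theorem P2_neg : P2 Q (-L) ↔ P2 Q L := by
  simp only [P2, LinearMap.neg_apply, map_neg, neg_neg]

theorem P3_neg : P3 Q (-L) ↔ P3 Q L := by
  simp only [P3, LinearMap.neg_apply, map_neg, neg_neg]

theorem inv_comm {g : (ι → ZMod 3) ≃ₗ[ZMod 3] (ι → ZMod 3)} (hg : ∀ v, g (L v) = L' (g v)) (v : ι → ZMod 3) :
    g⁻¹ (L' v) = L (g⁻¹ v) := by
  have h1 : ∀ w, g (g⁻¹ w) = w := fun w => g.apply_symm_apply w
  apply g.injective
  rw [h1, hg, h1]

theorem P2_iff_of_comm {g : O Q} (hg : ∀ v, (g : (ι → ZMod 3) ≃ₗ[ZMod 3] (ι → ZMod 3)) (L v) =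
    L' ((g : (ι → ZMod 3) ≃ₗ[ZMod 3] (ι → ZMod 3)) v)) : P2 Q L ↔ P2 Q L' :=
  ⟨P2_of_comm g.2 hg, P2_of_comm (g⁻¹).2 (inv_comm hg)⟩

theorem P3_iff_of_comm {g : O Q} (hg : ∀ v, (g : (ι → ZMod 3) ≃ₗ[ZMod 3] (ι → ZMod 3)) (L v) =
    L' ((g : (ι → ZMod 3) ≃ₗ[ZMod 3] (ι → ZMod 3)) v)) : P3 Q L ↔ P3 Q L' :=
  ⟨P3_of_comm g.2 hg, P3_of_comm (g⁻¹).2 (inv_comm hg)⟩

theorem exO_ne (hL : Sk Q L) (h : L ≠ 0) : exO hL ≠ 1 := by
  intro h1
  apply h
  have h2 : lg (ex hL) = 0 := by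
    have h3 : ex hL = 1 := congrArg Subtype.val h1
    rw [h3]
    refine LinearMap.ext fun v => ?_
    rw [lg_apply]
    exact sub_self _
  rwa [lg_ex] at h2

theorem exO_one (hL : Sk Q L) (h : L = 0) : exO hL = 1 := by
  apply Subtype.ext
  ext1 v
  show ex hL v = v
  rw [ex_apply, h]
  simp

/-- **The assembly.** -/
theorem dat {T : Type*} (M : T → Typ Q) (C : T → AA → Prop) (h0 : ∀ t, (M t).S.rk 1 ≠ 0)
    (hcov : ∀ (L : (ι → ZMod 3) →ₗ[ZMod 3] (ι → ZMod 3)), Sk Q L → L ≠ 0 → ∃ t p, Fr Q L (M t).S (M t).τ p)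
    (hlow : ∀ t a, C t a → ∃ g, g * exO (M t).sk * g⁻¹ = exO (M t).sk ∧ dl Q g = a)
    (hup : ∀ t (g : O Q), Cm (M t).L (g : (ι → ZMod 3) ≃ₗ[ZMod 3] (ι → ZMod 3)) → C t (dl Q g))
    (hreal : ∀ t, (∀ a, C t a) ∨ ∃ g, g * exO (M t).sk * g⁻¹ = (exO (M t).sk)⁻¹ ∧ C t (dl Q g))
    (hsep : ∀ t t', (M t).S.rk 1 = (M t').S.rk 1 → (M t).S.rk 2 = (M t').S.rk 2 → (P2 Q (M t).L ↔ P2 Q (M t').L) →
      (P3 Q (M t).L ↔ P3 Q (M t').L) → t = t') :
    Assem.Dat (dl Q) (fun t => exO (M t).sk) C where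
  sq := AA_sq
  cube t := exO_three _
  ne t := by
    apply exO_ne
    intro h
    apply h0 t
    rw [← (M t).rank, h, pow_one, LinearMap.range_zero, finrank_bot]
  hc t a := by
    constructor
    · exact hlow t a
    · rintro ⟨g, hg, rfl⟩
      exact hup t g (of_conj_ex hg)
  cov z hz hz1 := by
    obtain ⟨L, hL, rfl⟩ := exists_exO hz
    have hL0 : L ≠ 0 := fun h => hz1 (exO_one hL h)
    obtain ⟨t, p, hp⟩ := hcov L hL hL0
    obtain ⟨g, hgO, hg, -⟩ := exists_conj hL (M t).sk (M t).ok hp (M t).fr (M t).dim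
    exact ⟨t, ⟨g, hgO⟩, conj_ex_of hg⟩
  sep t t' g h := by
    rcases h with h | h
    · have h1 := of_conj_ex h
      apply hsep
      · have := range_of_comm h1 1
        rwa [Typ.rank, Typ.rank] at this
      · have := range_of_comm h1 2
        rwa [Typ.rank, Typ.rank] at this
      · exact P2_iff_of_comm h1
      · exact P3_iff_of_comm h1
    · rw [← exO_neg] at h
      have h1 := of_conj_ex h
      apply hsep
      · have := range_of_comm h1 1
        rwa [Typ.rank, Typ.rank'] at this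
      · have := range_of_comm h1 2
        rwa [Typ.rank, Typ.rank'] at this
      · exact (P2_iff_of_comm h1).trans P2_neg
      · exact (P3_iff_of_comm h1).trans P3_neg
  real t := by
    rcases hreal t with h | h
    · obtain ⟨g, hgO, hg, -⟩ := exists_conj (M t).sk (M t).sk.neg (M t).ok (M t).fr (M t).fr' (M t).dim
      refine ⟨⟨g, hgO⟩, ?_, h _⟩
      rw [← exO_neg]
      exact conj_ex_of hg
    · exact h

/-! ### The centre -/

theorem ker_center (hG : Good Q) : ∀ z ∈ Subgroup.center (dl Q).ker, z ^ 2 = 1 := by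
  intro z hz
  have hzE : ((z : O Q) : (ι → ZMod 3) ≃ₗ[ZMod 3] (ι → ZMod 3)) ∈ E Q :=
    (mem_E_iff_dl hG _).2 (MonoidHom.mem_ker.1 z.2)
  have h1 : (⟨_, hzE⟩ : E Q) ∈ Subgroup.center (E Q) := by
    rw [Subgroup.mem_center_iff]
    rintro ⟨g, hg⟩
    apply Subtype.ext
    have hg1 : (⟨g, E_le_O hg⟩ : O Q) ∈ (dl Q).ker := MonoidHom.mem_ker.2 ((mem_E_iff_dl hG _).1 hg)
    have h2 := (Subgroup.mem_center_iff.1 hz) ⟨⟨g, E_le_O hg⟩, hg1⟩
    exact congrArg (fun x : (dl Q).ker => ((x : O Q) : (ι → ZMod 3) ≃ₗ[ZMod 3] (ι → ZMod 3))) h2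
  obtain ⟨c, hc⟩ := ClassicalGeometry.OrthAut1.center_scalar hG h1
  apply Subtype.ext
  apply Subtype.ext
  ext1 v
  show ((z : O Q) : (ι → ZMod 3) ≃ₗ[ZMod 3] (ι → ZMod 3)) (((z : O Q) : (ι → ZMod 3) ≃ₗ[ZMod 3] (ι → ZMod 3)) v) = v
  have hc' : ∀ v, ((z : O Q) : (ι → ZMod 3) ≃ₗ[ZMod 3] (ι → ZMod 3)) v = c • v := hc
  rw [hc', hc', smul_smul]
  by_cases h0 : c = 0
  · exfalso
    obtain ⟨x, hx, -⟩ := hG.sing
    apply hx
    apply ((z : O Q) : (ι → ZMod 3) ≃ₗ[ZMod 3] (ι → ZMod 3)).injective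
    rw [hc', h0, zero_smul, map_zero]
  · rw [sq_eq_one h0, one_smul]

/-- `E Q` as the kernel -/
def kerEquiv (hG : Good Q) : (dl Q).ker ≃* E Q where
  toFun z := ⟨((z : O Q) : (ι → ZMod 3) ≃ₗ[ZMod 3] (ι → ZMod 3)), (mem_E_iff_dl hG _).2 (MonoidHom.mem_ker.1 z.2)⟩
  invFun g := ⟨⟨(g : (ι → ZMod 3) ≃ₗ[ZMod 3] (ι → ZMod 3)), E_le_O g.2⟩, MonoidHom.mem_ker.2 ((mem_E_iff_dl hG _).1 g.2)⟩
  left_inv z := rfl
  right_inv g := rfl
  map_mul' z w := rfl

/-- the simple group -/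
noncomputable def ppEquiv (hG : Good Q) : Assem.PP (dl Q) ≃* Cfsg.POmega (ZMod 3) ⇑Q :=
  (LieClassical.OrthFinite.quotientCenterCongr (kerEquiv hG)).trans (PCenter.pomegaE hG).symm

end Cfsg.Agent.H844.Unip
end
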